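import Cfsg.Agent.Lib.OddLocal.Rank3H

/-!
Solvable groups of odd order with narrow Sylow subgroups.
-/

set_option autoImplicit false
set_option linter.unusedSectionVars false
set_option linter.style.haveILetI false

namespace Cfsg.Agent.Lib.OddLocal

open Subgroup Cfsg Cfsg.Agent.Lib.Basic Cfsg.Agent.Lib.Coprime

open scoped commutatorElement

universe u v

variable {G : Type u} [Group G] [Finite G]

/-- The `p`-rank of a group is the rank of a Sylow subgroup. -/
theorem prank_of_sylow {p k : ℕ} [hp : Fact p.Prime] (S : Sylow p G) (hr : PRankLE p k ↥(S : Subgroup G)) : PRankLE p k G := by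
  classical
  intro A hAc hAe
  have hAp : IsPGroup p A := fun x => ⟨1, by rw [pow_one]; exact Subtype.ext (hAe _ x.2)⟩
  obtain ⟨S', hS'⟩ := hAp.exists_le_sylow
  obtain ⟨g, hg⟩ := MulAction.exists_smul_eq G S' S
  set A' := A.map (MulAut.conj g).toMonoidHom with hA'
  have hle : A' ≤ (S : Subgroup G) := by
    rintro _ ⟨a, ha, rfl⟩
    rw [← hg, Sylow.smul_def, Sylow.pointwise_smul_def]
    exact ⟨a, hS' ha, by simp [MulAut.conj_apply]⟩
  have h1 := prank_of_elem hle hr (by
    rintro _ ⟨a, ha, rfl⟩ _ ⟨b, hb, rfl⟩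
    have := hAc.is_comm.comm ⟨a, ha⟩ ⟨b, hb⟩
    have h2 : a * b = b * a := congrArg Subtype.val this
    rw [← map_mul, ← map_mul, h2]) (by
    rintro _ ⟨a, ha, rfl⟩
    rw [← map_pow, hAe a ha, map_one])
  rwa [Nat.card_congr (A.equivMapOfInjective _ (MulAut.conj g).injective).symm.toEquiv] at h1

/-- The rank at least three case of **S1455**. -/
theorem s1455_rank3 [Group.IsSolvable G] (hodd : Odd (Nat.card G)) (p : ℕ) [hp : Fact p.Prime] (hp2 : p ≠ 2) (S : Sylow p G)
    (hS : IsNarrow p ↥(S : Subgroup G)) (hr : ¬ PRankLE p 2 ↥(S : Subgroup G)) (hpl : PLengthLE p 1 G) :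
    commutator G ≤ pPrimePCore p G ∧ ∀ q : ℕ, q.Prime → q ∣ (pPrimeCore p G).index → q ≤ p := by
  classical
  set N := pPrimeCore p G with hN
  haveI hNn : N.Normal := inferInstance
  set π := QuotientGroup.mk' N with hπ
  have hπs : Function.Surjective π := QuotientGroup.mk'_surjective N
  haveI : Group.IsSolvable (G ⧸ N) := inferInstance
  have hcore : pPrimeCore p (G ⧸ N) = ⊥ := pPrimeCore_quotient_eq_bot p
  set R := pCore p (G ⧸ N) with hR
  have hRp : IsPGroup p R := pCore_isPGroup p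
  haveI hRn : R.Normal := inferInstance
  have hC : centralizer (R : Set (G ⧸ N)) ≤ R := centralizer_pCore_le hcore
  have hidx : R.index.Coprime p := by
    have h1 : (pPrimePCore p G).index = R.index := Subgroup.index_comap_of_surjective R hπs
    rw [← h1]
    exact index_pPrimePCore_coprime hpl
  have hSp : IsPGroup p (S : Subgroup G) := S.isPGroup'
  have hSmap : (S : Subgroup G).map π ≤ R := isPGroup_le_of_index_coprime hidx (hSp.map π)
  -- the isomorphism of `S` and `R`
  let f : ↥(S : Subgroup G) →* ↥R :=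
    (π.comp (S : Subgroup G).subtype).codRestrict R (fun x => hSmap ⟨x, x.2, rfl⟩)
  have hf : ∀ x, ((f x : ↥R) : G ⧸ N) = π x := fun x => rfl
  have hfinj : Function.Injective f := by
    rw [injective_iff_map_eq_one]
    intro x hx
    have h1 : π x = 1 := by
      have := congrArg Subtype.val hx
      rwa [hf] at this
    have h2 : (x : G) ∈ N := (QuotientGroup.eq_one_iff _).1 h1
    have h3 : orderOf (x : G) ∣ Nat.card N := Subgroup.orderOf_dvd_natCard N h2
    obtain ⟨n, hn⟩ := IsPGroup.iff_card.1 hSp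
    have h4 : orderOf (x : G) ∣ p ^ n := hn ▸ Subgroup.orderOf_dvd_natCard _ x.2
    have h5 : (Nat.card N).Coprime (p ^ n) := Nat.Coprime.pow_right n (pPrimeCore_coprime p)
    apply Subtype.ext
    exact orderOf_eq_one_iff.1 (Nat.eq_one_of_dvd_coprimes h5 h3 h4)
  have hcardR : Nat.card R ≤ Nat.card (S : Subgroup G) := by
    obtain ⟨k, hk⟩ := IsPGroup.iff_card.1 hRp
    have h1 : Nat.card R ∣ Nat.card G := by
      refine (Subgroup.card_subgroup_dvd_card R).trans ?_
      rw [← Subgroup.index_eq_card]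
      exact Subgroup.index_dvd_card N
    have h2 := (S : Subgroup G).card_mul_index
    rw [← h2, hk] at h1
    have h3 : (p ^ k).Coprime (S : Subgroup G).index :=
      Nat.Coprime.pow_left _ ((Nat.Prime.coprime_iff_not_dvd hp.out).2 S.not_dvd_index)
    rw [hk]
    exact Nat.le_of_dvd Nat.card_pos (h3.dvd_of_dvd_mul_right h1)
  have hfsurj : Function.Surjective f := by
    have h1 := Nat.card_le_card_of_injective f hfinj
    exact ((Nat.bijective_iff_injective_and_card f).2 ⟨hfinj, le_antisymm h1 hcardR⟩).2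
  have hrR : ¬ PRankLE p 2 ↥R := by
    intro h
    apply hr
    intro A hAc hAe
    have h1 := h (A.map f) ⟨⟨by
      rintro ⟨_, a, ha, rfl⟩ ⟨_, b, hb, rfl⟩
      apply Subtype.ext
      have := hAc.is_comm.comm ⟨a, ha⟩ ⟨b, hb⟩
      have h2 : a * b = b * a := congrArg Subtype.val this
      show f a * f b = f b * f a
      rw [← map_mul, ← map_mul, h2]⟩⟩ (by
      rintro _ ⟨a, ha, rfl⟩
      rw [← map_pow, hAe a ha, map_one])
    rwa [Nat.card_congr (A.equivMapOfInjective _ hfinj).symm.toEquiv] at h1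
  obtain ⟨E, hE, hE2, hEmax⟩ := narrow_max p hSp hr hS
  have hE' : IsElementaryAbelian p (E.map f) := by
    refine ⟨⟨⟨?_⟩⟩, ?_⟩
    · rintro ⟨_, a, ha, rfl⟩ ⟨_, b, hb, rfl⟩
      apply Subtype.ext
      have := hE.1.is_comm.comm ⟨a, ha⟩ ⟨b, hb⟩
      have h2 : a * b = b * a := congrArg Subtype.val this
      show f a * f b = f b * f a
      rw [← map_mul, ← map_mul, h2]
    · rintro _ ⟨a, ha, rfl⟩
      rw [← map_pow, hE.2 a ha, map_one]
  have hE2' : Nat.card (E.map f) = p ^ 2 := by
    rw [Nat.card_congr (E.equivMapOfInjective _ hfinj).symm.toEquiv, hE2]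
  have hEmax' : ∀ B : Subgroup ↥R, IsElementaryAbelian p B → E.map f ≤ B → B = E.map f := by
    intro B hB hle
    apply le_antisymm _ hle
    intro y hy
    obtain ⟨x, rfl⟩ := hfsurj y
    have h1 : B.comap f = E := by
      apply hEmax
      · refine ⟨⟨⟨?_⟩⟩, ?_⟩
        · rintro ⟨a, ha⟩ ⟨b, hb⟩
          apply Subtype.ext
          apply hfinj
          have := hB.1.is_comm.comm ⟨f a, ha⟩ ⟨f b, hb⟩
          have h2 : f a * f b = f b * f a := congrArg Subtype.val this
          show f (a * b) = f (b * a)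
          rw [map_mul, map_mul, h2]
        · intro a ha
          apply hfinj
          rw [map_pow, hB.2 _ ha, map_one]
      · intro a ha
        exact hle ⟨a, ha, rfl⟩
    have h2 : x ∈ B.comap f := hy
    rw [h1] at h2
    exact ⟨x, h2, rfl⟩
  have hkey : ∀ b : G ⧸ N, (orderOf b).Coprime p →
      (∀ (V : Type u) [Group V] [IsCyclic V] [Finite V], Nat.card V = p → ∀ ψ : (G ⧸ N) →* MulAut V, ψ b = 1) → b = 1 := by
    intro b hb hb₂
    have hfix := rank3_fix p hp2 hRp hrR (E.map f) hE' hE2' hEmax' (MulAut.conjNormal : (G ⧸ N) →* MulAut ↥R) b hb hb₂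
    have h1 : b ∈ centralizer (R : Set (G ⧸ N)) := by
      rw [mem_centralizer_iff]
      intro x hx
      have h2 := congrArg Subtype.val (hfix ⟨x, hx⟩)
      rw [MulAut.conjNormal_apply] at h2
      exact (mul_inv_eq_iff_eq_mul.1 h2).symm
    obtain ⟨m, hm⟩ := hRp ⟨b, hC h1⟩
    have h3 : b ^ p ^ m = 1 := by
      have := congrArg Subtype.val hm
      simpa using this
    have h4 : orderOf b = 1 := Nat.eq_one_of_dvd_coprimes (hb.pow_right m) dvd_rfl (orderOf_dvd_of_pow_eq_one h3)
    exact orderOf_eq_one_iff.1 h4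
  -- the derived subgroup
  have hDp : IsPGroup p (commutator (G ⧸ N)) := by
    intro c
    have h0 : orderOf (c : G ⧸ N) ≠ 0 := (orderOf_pos _).ne'
    obtain ⟨e, m, hm, hem⟩ := Nat.exists_eq_pow_mul_and_not_dvd h0 p hp.out.ne_one
    refine ⟨e, Subtype.ext ?_⟩
    have h1 : (c : G ⧸ N) ^ p ^ e ∈ commutator (G ⧸ N) := pow_mem c.2 _
    have hord : (orderOf ((c : G ⧸ N) ^ p ^ e)).Coprime p := by
      rw [orderOf_pow_of_dvd (pow_ne_zero e hp.out.ne_zero) ⟨m, hem⟩]
      have : orderOf (c : G ⧸ N) / p ^ e = m := by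
        rw [hem]
        exact Nat.mul_div_cancel_left m (pow_pos hp.out.pos e)
      rw [this]
      exact ((Nat.Prime.coprime_iff_not_dvd hp.out).2 hm).symm
    have h2 := hkey _ hord (fun V _ _ _ _ ψ => hb2_of_commutator _ h1 V ψ)
    simpa using h2
  have hDq : commutator (G ⧸ N) ≤ R := le_pCore inferInstance hDp
  refine ⟨?_, ?_⟩
  · have hle : commutator G ≤ (commutator (G ⧸ N)).comap π := by
      rw [commutator_eq_closure, closure_le]
      rintro _ ⟨a, b, rfl⟩
      show π ⁅a, b⁆ ∈ commutator (G ⧸ N)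
      rw [map_commutatorElement, _root_.commutator_def]
      exact Subgroup.commutator_mem_commutator (mem_top _) (mem_top _)
    exact fun x hx => hDq (hle hx)
  · intro q hq hqd
    by_cases hqp : q = p
    · exact hqp.le
    rw [Subgroup.index_eq_card] at hqd
    haveI : Fact q.Prime := ⟨hq⟩
    obtain ⟨x, hx⟩ := exists_prime_orderOf_dvd_card' q hqd
    have hord : (orderOf (x ^ (p - 1))).Coprime p := by
      apply Nat.Coprime.coprime_dvd_left (orderOf_pow_dvd _)
      rw [hx]
      exact (Nat.coprime_primes hq hp.out).2 hqp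
    have h1 := hkey _ hord (fun V _ _ _ hV ψ => hb2_of_pow p x V hV ψ)
    have h2 : q ∣ p - 1 := hx ▸ orderOf_dvd_of_pow_eq_one h1
    have hp1 := hp.out.one_lt
    have := Nat.le_of_dvd (by omega) h2
    omega

/-- **S1455**. -/
theorem s1455_core [Group.IsSolvable G] (hodd : Odd (Nat.card G)) (p : ℕ) [hp : Fact p.Prime] (hpG : p ∣ Nat.card G)
    (S : Sylow p G) (hS : IsNarrow p ↥(S : Subgroup G)) (hpl : ¬ PRankLE p 2 ↥(S : Subgroup G) → PLengthLE p 1 G) :
    (∀ q : ℕ, q.Prime → q ∣ (pPrimeCore p G).index → q ≤ p) ∧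
      ((p = 3 ∨ ∀ q : ℕ, q.Prime → q ∣ Nat.card G → p ≤ q) → HasNormalPComplement p G) ∧
      HasNormalPComplement p ↥(commutator G) ∧
      (∀ L : Subgroup ↥(commutator G), (Nat.card L).Coprime p → L ≤ pPrimeCore p ↥(commutator G)) ∧
      commutator G ≤ pPrimePCore p G ∧ ((pPrimePCore p G).index).Coprime p := by
  classical
  have hp2 : p ≠ 2 := by
    rintro rfl
    obtain ⟨k, hk⟩ := hodd
    rw [hk] at hpG
    omega
  by_cases hr : PRankLE p 2 ↥(S : Subgroup G)
  · obtain ⟨h1, h2, h3⟩ := rank2_quotient_structure hodd p hp2 (prank_of_sylow S hr)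
    exact s1450_conclusion hodd p h1 h2 h3
  · have hpl' := hpl hr
    obtain ⟨h1, h3⟩ := s1455_rank3 hodd p hp2 S hS hr hpl'
    exact s1450_conclusion hodd p h1 (index_pPrimePCore_coprime hpl') h3

end Cfsg.Agent.Lib.OddLocal
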