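import Cfsg.Agent.Lib.OddLocal.Trans1
import Cfsg.Agent.Lib.Components.Signal

/-!
Thompson's transitivity theorem for subgroups whose centre has rank at least three, or at least two
(with `q` dividing the order of the centralizer).
-/

set_option autoImplicit false
set_option linter.unusedSectionVars false
set_option linter.style.haveILetI false

namespace Cfsg.Agent.Lib.OddLocal

open Subgroup Cfsg

open Cfsg.Agent.Lib.Coprime (mem_conj_map conj_mem_conj_map conj_map_conj_map conj_map_one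
  conj_map_mono card_conj_map mem_normalizer_of_conj_le conj_map_eq_iff_mem_normalizer)

variable {G : Type*} [Group G] [Finite G] {A : Subgroup G}

local notation "𝐊" => piCoreOf (primesNotDvd (Nat.card A)) (centralizer (A : Set G))

/-- A large elementary abelian subgroup of the centre of `A`. -/
theorem exists_ea_center {k : ℕ} (h : ¬ RankLE k ↥(A ⊓ centralizer (A : Set G))) :
    ∃ p : ℕ, p.Prime ∧ ∃ E : Subgroup G, E ≤ A ⊓ centralizer (A : Set G) ∧ IsElementaryAbelian p E ∧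
      p ^ k < Nat.card E := by
  simp only [RankLE, PRankLE] at h
  push Not at h
  obtain ⟨p, hp, E, hEc, hEp, hEc2⟩ := h
  refine ⟨p, hp, E.map (Subgroup.subtype _), Subgroup.map_subtype_le _, ⟨⟨?_⟩, ?_⟩, ?_⟩
  · constructor
    rintro ⟨_, a, ha, rfl⟩ ⟨_, b, hb, rfl⟩
    apply Subtype.ext
    have := hEc.is_comm.comm ⟨a, ha⟩ ⟨b, hb⟩
    have h2 := congrArg (fun x : E => ((x : ↥(A ⊓ centralizer (A : Set G))) : G)) this
    simpa using h2
  · rintro _ ⟨a, ha, rfl⟩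
    have := hEp a ha
    have h2 := congrArg (fun x : ↥(A ⊓ centralizer (A : Set G)) => (x : G)) this
    simpa using h2
  · rw [Subgroup.card_map_of_injective (Subgroup.subtype_injective _)]
    exact hEc2

section

variable {p : ℕ} [Fact p.Prime] {E : Subgroup G}

/-- For a `q`-subgroup `Q ≠ 1` there is a hyperplane of `E` with nontrivial fixed points. -/
theorem exists_hyperplane_fix (hE : IsElementaryAbelian p E) {Q : Subgroup G} (hQp : ¬ p ∣ Nat.card Q)
    (hEQ : E ≤ normalizer (Q : Set G)) (hQ : Q ≠ ⊥) :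
    ∃ B : Subgroup G, B ≤ E ∧ B.relIndex E ≤ p ∧ Q ⊓ centralizer (B : Set G) ≠ ⊥ := by
  by_contra hno
  push Not at hno
  apply hQ
  rw [eq_bot_iff]
  refine (Agent.Lib.Components.le_iSup_centralizer_hyperplane hE hQp hEQ).trans (iSup_le fun B => ?_)
  rw [hno B B.2.1 B.2.2]

/-- A subgroup of `A ⊓ C(A)`: every nontrivial element of it gives a proper overgroup of `A`. -/
theorem centralizer_singleton_ne_top (hG : IsMinSimpleOddOrder G) {e : G} (he : e ≠ 1) :
    centralizer ({e} : Set G) ≠ ⊤ := by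
  intro h
  have hc : e ∈ center G := by
    rw [Subgroup.mem_center_iff]
    intro g
    have : g ∈ centralizer ({e} : Set G) := h ▸ Subgroup.mem_top g
    exact Subgroup.mem_centralizer_singleton_iff.1 this
  have hc1 : center G ≠ ⊥ := by
    intro hb
    rw [hb] at hc
    exact he (Subgroup.mem_bot.1 hc)
  have hc2 : center G = ⊤ := (IsMinSimpleOddOrder.normal_eq hG inferInstance).resolve_left hc1
  apply hG.2.2.1
  constructor
  constructor
  intro a b
  have h1 : a ∈ center G := hc2 ▸ Subgroup.mem_top a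
  exact (Subgroup.mem_center_iff.1 h1 b).symm

/-- The overgroup `C(e)` for `e ∈ Z(A)` with fixed points on both subgroups. -/
theorem kconj_of_common_fix (hG : IsMinSimpleOddOrder G) (hA : TransitivityHypothesis A) (q : ℕ)
    [Fact q.Prime] (hq : ¬ q ∣ Nat.card A) {Q₁ Q₂ : Subgroup G} (h₁ : Q₁ ∈ maxInvSubgroups ⊤ A {q})
    (h₂ : Q₂ ∈ maxInvSubgroups ⊤ A {q}) {e : G} (heA : e ∈ centralizer (A : Set G)) (he : e ≠ 1)
    (hf₁ : Q₁ ⊓ centralizer ({e} : Set G) ≠ ⊥) (hf₂ : Q₂ ⊓ centralizer ({e} : Set G) ≠ ⊥) :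
    KConj 𝐊 Q₁ Q₂ := by
  refine kconj_of_meet hG hA q hq h₁ h₂ (centralizer_singleton_ne_top hG he) ?_ ?_ ?_
  · intro a ha
    rw [Subgroup.mem_centralizer_singleton_iff]
    exact (Subgroup.mem_centralizer_iff.1 heA a ha)
  · rwa [inf_comm]
  · rwa [inf_comm]

theorem inf_centralizer_singleton_ne_bot {Q B : Subgroup G} {e : G} (heB : e ∈ B)
    (h : Q ⊓ centralizer (B : Set G) ≠ ⊥) : Q ⊓ centralizer ({e} : Set G) ≠ ⊥ := by
  intro h0
  apply h
  rw [eq_bot_iff, ← h0]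
  refine inf_le_inf_left _ (Subgroup.centralizer_le ?_)
  rintro x rfl
  exact heB

end

theorem eq_of_maxInv_bot {Q₁ Q₂ : Subgroup G} {q : ℕ} (h₁ : Q₁ ∈ maxInvSubgroups ⊤ A {q})
    (h₂ : Q₂ ∈ maxInvSubgroups ⊤ A {q}) (h0 : Q₁ = ⊥) : Q₂ = Q₁ := by
  exact h₁.2 Q₂ h₂.1 (by rw [h0]; exact bot_le)

/-- `p` does not divide a `q`-subgroup when `q ∤ #A` and `p ∣ #A`. -/
theorem not_dvd_of_maxInv {Q : Subgroup G} {p q : ℕ} (hp : p.Prime) (hpA : p ∣ Nat.card A)
    (hq : ¬ q ∣ Nat.card A) (hQ : Q ∈ maxInvSubgroups ⊤ A {q}) : ¬ p ∣ Nat.card Q := by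
  intro h
  have := hQ.1.2.1 p hp h
  rw [Set.mem_singleton_iff] at this
  subst this
  exact hq hpA

/-- Thompson transitivity, centre of rank at least three. -/
theorem transitivity_rank_three (hG : IsMinSimpleOddOrder G) (hA : TransitivityHypothesis A)
    (hZ : ¬ RankLE 2 ↥(A ⊓ centralizer (A : Set G))) (q : ℕ) (hq : q.Prime)
    (hqA : ¬ q ∣ Nat.card A) (Q₁ Q₂ : Subgroup G) (h₁ : Q₁ ∈ maxInvSubgroups ⊤ A {q})
    (h₂ : Q₂ ∈ maxInvSubgroups ⊤ A {q}) : KConj 𝐊 Q₁ Q₂ := by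
  haveI : Fact q.Prime := ⟨hq⟩
  obtain ⟨p, hp, E, hEZ, hEe, hEc⟩ := exists_ea_center hZ
  haveI : Fact p.Prime := ⟨hp⟩
  by_cases h0₁ : Q₁ = ⊥
  · rw [eq_of_maxInv_bot h₁ h₂ h0₁]
    exact KConj.refl _ _
  by_cases h0₂ : Q₂ = ⊥
  · rw [eq_of_maxInv_bot h₂ h₁ h0₂]
    exact KConj.refl _ _
  have hEA : E ≤ A := hEZ.trans inf_le_left
  have hEne : E ≠ ⊥ := by
    intro h
    rw [h, Subgroup.card_bot] at hEc
    have : 1 ≤ p ^ 2 := Nat.one_le_pow _ _ hp.pos
    omega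
  have hpE : p ∣ Nat.card E := by
    obtain ⟨x, hx, hx1⟩ := E.bot_or_exists_ne_one.resolve_left hEne
    have hox : orderOf x = p := orderOf_eq_prime (hEe.2 x hx) hx1
    rw [← hox]
    exact Subgroup.orderOf_dvd_natCard E hx
  have hpA : p ∣ Nat.card A := hpE.trans (Subgroup.card_dvd_of_le hEA)
  obtain ⟨B₁, hB₁, hi₁, hf₁⟩ := exists_hyperplane_fix hEe (not_dvd_of_maxInv hp hpA hqA h₁)
    (hEA.trans h₁.1.2.2) h0₁
  obtain ⟨B₂, hB₂, hi₂, hf₂⟩ := exists_hyperplane_fix hEe (not_dvd_of_maxInv hp hpA hqA h₂)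
    (hEA.trans h₂.1.2.2) h0₂
  have hne : B₁ ⊓ B₂ ≠ ⊥ := by
    intro h
    have h1 := Subgroup.relIndex_inf_le (H := B₁) (K := B₂) (L := E)
    rw [h, Subgroup.relIndex_bot_left] at h1
    have h2 : B₁.relIndex E * B₂.relIndex E ≤ p * p := Nat.mul_le_mul hi₁ hi₂
    have h3 : p ^ 2 = p * p := by ring
    omega
  obtain ⟨e, he, he1⟩ := (B₁ ⊓ B₂).bot_or_exists_ne_one.resolve_left hne
  have heB₁ := (Subgroup.mem_inf.1 he).1
  have heB₂ := (Subgroup.mem_inf.1 he).2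
  have heC : e ∈ centralizer (A : Set G) := (hEZ (hB₁ heB₁) : _ ∈ A ⊓ _).2
  exact kconj_of_common_fix hG hA q hqA h₁ h₂ heC he1
    (inf_centralizer_singleton_ne_bot heB₁ hf₁) (inf_centralizer_singleton_ne_bot heB₂ hf₂)

/-- Thompson transitivity, centre of rank at least two and `q` dividing `#C(A)`. -/
theorem transitivity_rank_two (hG : IsMinSimpleOddOrder G) (hA : TransitivityHypothesis A)
    (hZ : ¬ RankLE 1 ↥(A ⊓ centralizer (A : Set G))) (q : ℕ) (hq : q.Prime)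
    (hqA : ¬ q ∣ Nat.card A) (hqC : q ∣ Nat.card (centralizer (A : Set G))) (Q₁ Q₂ : Subgroup G)
    (h₁ : Q₁ ∈ maxInvSubgroups ⊤ A {q}) (h₂ : Q₂ ∈ maxInvSubgroups ⊤ A {q}) : KConj 𝐊 Q₁ Q₂ := by
  haveI : Fact q.Prime := ⟨hq⟩
  obtain ⟨p, hp, E, hEZ, hEe, hEc⟩ := exists_ea_center hZ
  haveI : Fact p.Prime := ⟨hp⟩
  rw [pow_one] at hEc
  -- an element of order `q` in `C(A)`
  obtain ⟨x, hx⟩ := exists_prime_orderOf_dvd_card' q hqC
  have hxC : (x : G) ∈ centralizer (A : Set G) := x.2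
  have hxo : orderOf (x : G) = q := by
    rw [Subgroup.orderOf_coe]
    exact hx
  have hx1 : (x : G) ≠ 1 := by
    intro h
    rw [h, orderOf_one] at hxo
    exact hq.one_lt.ne hxo
  let X : Subgroup G := zpowers (x : G)
  have hXC : X ≤ centralizer (A : Set G) := (Subgroup.zpowers_le).2 hxC
  have hXq : IsPGroup q X := by
    refine IsPGroup.of_card (n := 1) ?_
    rw [Nat.card_zpowers, hxo, pow_one]
  have hXinv : X ∈ invSubgroups ⊤ A {q} :=
    ⟨le_top, (isPiSub_singleton_iff hq).2 hXq, normalizes_of_le_centralizer hXC⟩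
  obtain ⟨Q₀, hQ₀, hXQ₀⟩ := exists_maxInv_ge hXinv
  have hEA : E ≤ A := hEZ.trans inf_le_left
  have hEne : E ≠ ⊥ := by
    intro h
    rw [h, Subgroup.card_bot] at hEc
    have := hp.one_lt
    omega
  have hpE : p ∣ Nat.card E := by
    obtain ⟨x, hx, hx1⟩ := E.bot_or_exists_ne_one.resolve_left hEne
    have hox : orderOf x = p := orderOf_eq_prime (hEe.2 x hx) hx1
    rw [← hox]
    exact Subgroup.orderOf_dvd_natCard E hx
  have hpA : p ∣ Nat.card A := hpE.trans (Subgroup.card_dvd_of_le hEA)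
  have key : ∀ Q ∈ maxInvSubgroups ⊤ A {q}, KConj 𝐊 Q₀ Q := by
    intro Q hQ
    have hQ0 : Q ≠ ⊥ := by
      intro h0
      have h1 := hQ.2 X hXinv (by rw [h0]; exact bot_le)
      have h2 : (x : G) ∈ X := Subgroup.mem_zpowers _
      rw [h1, h0] at h2
      exact hx1 (Subgroup.mem_bot.1 h2)
    obtain ⟨B, hB, hi, hf⟩ := exists_hyperplane_fix hEe (not_dvd_of_maxInv hp hpA hqA hQ)
      (hEA.trans hQ.1.2.2) hQ0
    have hBne : B ≠ ⊥ := by
      intro h
      rw [h, Subgroup.relIndex_bot_left] at hi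
      omega
    obtain ⟨e, he, he1⟩ := B.bot_or_exists_ne_one.resolve_left hBne
    have heC : e ∈ centralizer (A : Set G) := (hEZ (hB he) : _ ∈ A ⊓ _).2
    refine kconj_of_common_fix hG hA q hqA hQ₀ hQ heC he1 ?_ (inf_centralizer_singleton_ne_bot he hf)
    intro h0
    have h2 : (x : G) ∈ Q₀ ⊓ centralizer ({e} : Set G) := by
      refine Subgroup.mem_inf.2 ⟨hXQ₀ (Subgroup.mem_zpowers _), ?_⟩
      rw [Subgroup.mem_centralizer_singleton_iff]
      exact Subgroup.mem_centralizer_iff.1 hxC e (hEA (hB he)) |>.symm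
    rw [h0] at h2
    exact hx1 (Subgroup.mem_bot.1 h2)
  exact (key Q₁ h₁).symm.trans (key Q₂ h₂)

end Cfsg.Agent.Lib.OddLocal
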