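import Mathlib.FieldTheory.Finite.GaloisField
import Mathlib.FieldTheory.Finite.Trace
import Mathlib.RingTheory.Norm.Basic

/-!
Norm identities in `GaloisField p q`: the set of `a` with `N(a) = N(2 - a) = 1`.
-/

namespace Cfsg.Agent.Lib.OddLocal

open Polynomial

set_option linter.unusedSectionVars false

variable (p q : ℕ) [Fact p.Prime] [Fact q.Prime]

local notation "𝔽" => GaloisField p q

/-- In characteristic `p`, natural numbers are fixed by `x ↦ x ^ p`. -/
theorem natCast_pow_char (n : ℕ) : ((n : GaloisField p q)) ^ p = n := by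
  induction n with
  | zero =>
    have := (Fact.out : p.Prime).pos
    simp [this.ne']
  | succ k ih =>
    push_cast
    rw [add_pow_char, ih, one_pow]

theorem natCast_pow_char_pow (n i : ℕ) : ((n : GaloisField p q)) ^ (p ^ i) = n := by
  induction i with
  | zero => simp
  | succ k ih => rw [pow_succ, pow_mul, ih, natCast_pow_char]

/-- The norm as a product of Frobenius powers. -/
theorem algebraMap_norm_galois (x : GaloisField p q) :
    algebraMap (ZMod p) (GaloisField p q) (Algebra.norm (ZMod p) x) =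
      ∏ i ∈ Finset.range q, x ^ (p ^ i) := by
  have := FiniteField.algebraMap_norm_eq_prod_pow (K := ZMod p) (L := GaloisField p q) (x := x)
  rw [this, GaloisField.finrank p (Fact.out : q.Prime).ne_zero, Nat.card_zmod]

/-- If the norm of `n + s` is constant for natural numbers `n`, then `p ≤ q`. -/
theorem le_of_norm_const (s : GaloisField p q)
    (h : ∀ n : ℕ, Algebra.norm (ZMod p) ((n : GaloisField p q) + s) = Algebra.norm (ZMod p) s) :
    p ≤ q := by
  classical
  have hq0 : q ≠ 0 := (Fact.out : q.Prime).ne_zero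
  let P : 𝔽[X] := ∏ i ∈ Finset.range q, (X + C (s ^ (p ^ i)))
  have hPm : P.Monic := monic_prod_of_monic _ _ fun i _ => monic_X_add_C _
  have hPd : P.natDegree = q := by
    rw [natDegree_prod_of_monic _ _ fun i _ => monic_X_add_C _]
    simp only [natDegree_X_add_C]
    simp
  have heval : ∀ n : ℕ, P.eval (n : 𝔽) = algebraMap (ZMod p) 𝔽 (Algebra.norm (ZMod p) s) := by
    intro n
    rw [← h n, algebraMap_norm_galois, eval_prod]
    refine Finset.prod_congr rfl fun i _ => ?_
    rw [add_pow_char_pow, natCast_pow_char_pow]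
    simp
  set c := algebraMap (ZMod p) 𝔽 (Algebra.norm (ZMod p) s) with hc
  let Q : 𝔽[X] := P - C c
  have hQd : Q.natDegree = q := by
    simp only [Q]
    rw [natDegree_sub_C, hPd]
  have hQ0 : Q ≠ 0 := by
    intro h0
    rw [h0] at hQd
    simp at hQd
    exact hq0 hQd.symm
  let Z : Finset 𝔽 := (Finset.range p).image (fun n : ℕ => (n : 𝔽))
  have hZcard : Z.card = p := by
    rw [Finset.card_image_of_injOn, Finset.card_range]
    intro a ha b hb hab
    have ha' : a < p := by simpa using ha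
    have hb' : b < p := by simpa using hb
    have := (CharP.natCast_eq_natCast 𝔽 p).1 hab
    exact Nat.ModEq.eq_of_lt_of_lt this ha' hb'
  have hZ : Z.val ⊆ Q.roots := by
    intro x hx
    have hx' : x ∈ Z := hx
    rw [Finset.mem_image] at hx'
    obtain ⟨n, _, rfl⟩ := hx'
    rw [mem_roots hQ0]
    simp only [Q, IsRoot.def, eval_sub, eval_C, heval n, sub_self]
  have := card_le_degree_of_subset_roots hZ
  rwa [hZcard, hQd] at this

theorem s1470_core (hinv : ∀ a ∈ {a : GaloisField p q | Algebra.norm (ZMod p) a = 1 ∧ Algebra.norm (ZMod p) (2 - a) = 1}, a⁻¹ ∈ {a : GaloisField p q | Algebra.norm (ZMod p) a = 1 ∧ Algebra.norm (ZMod p) (2 - a) = 1})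
    (h2 : 2 ≤ Set.ncard {a : GaloisField p q | Algebra.norm (ZMod p) a = 1 ∧ Algebra.norm (ZMod p) (2 - a) = 1}) :
    p ≤ q := by
  classical
  set E : Set 𝔽 := {a : 𝔽 | Algebra.norm (ZMod p) a = 1 ∧ Algebra.norm (ZMod p) (2 - a) = 1} with hE
  obtain ⟨a, haE, ha1⟩ := Set.exists_ne_of_one_lt_ncard (s := E) h2 (1 : 𝔽)
  have hstep : ∀ n : ℕ, ∃ b ∈ E, b ≠ 1 ∧ (n : 𝔽) + (a - 1)⁻¹ = (b - 1)⁻¹ ∧
      Algebra.norm (ZMod p) ((n : 𝔽) + (a - 1)⁻¹) = Algebra.norm (ZMod p) ((a - 1)⁻¹ : 𝔽) := by
    intro n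
    induction n with
    | zero => exact ⟨a, haE, ha1, by simp, by simp⟩
    | succ k ih =>
      obtain ⟨b, hbE, hb1, hbs, hbn⟩ := ih
      have hb0 : b ≠ 0 := by
        rintro rfl
        have : Algebra.norm (ZMod p) (0 : 𝔽) = 1 := hbE.1
        rw [Algebra.norm_zero] at this
        exact zero_ne_one this
      have hb1' : b - 1 ≠ 0 := sub_ne_zero.2 hb1
      have hbinv := hinv b hbE
      have hkey : ((k + 1 : ℕ) : 𝔽) + (a - 1)⁻¹ = b * (b - 1)⁻¹ := by
        push_cast
        rw [add_right_comm, hbs]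
        field_simp
        ring
      refine ⟨2 - b⁻¹, ⟨hbinv.2, ?_⟩, ?_, ?_, ?_⟩
      · rw [sub_sub_cancel]
        exact hbinv.1
      · intro h
        have : b⁻¹ = 1 := by linear_combination -h
        exact hb1 (by simpa using this)
      · rw [hkey]
        have : (2 - b⁻¹ - 1) = (b - 1) * b⁻¹ := by
          field_simp
          ring
        rw [this, mul_inv, inv_inv, mul_comm]
      · rw [hkey, map_mul, hbE.1, one_mul, ← hbs, hbn]
  refine le_of_norm_const p q ((a - 1)⁻¹) fun n => ?_
  obtain ⟨_, _, _, _, h⟩ := hstep n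
  exact h

end Cfsg.Agent.Lib.OddLocal
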