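import Mathlib.NumberTheory.LegendreSymbol.AddCharacter
import Mathlib.Analysis.Fourier.FiniteAbelian.PontryaginDuality
import Mathlib.Analysis.RCLike.Basic
import Mathlib.Analysis.SpecialFunctions.Pow.Real

/-!
A Fourier bound for three-term arithmetic progressions in a subgroup of the units of a finite field.
-/

namespace Cfsg.Agent.Lib.OddLocal

set_option linter.unusedSectionVars false
set_option linter.unusedSimpArgs false
set_option linter.deprecated false

open Finset ComplexConjugate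

section Fourier

variable {F : Type*} [Field F] [Fintype F] [DecidableEq F] (ψ : AddChar F ℂ) (U : Finset F)

/-- Fourier transform of the indicator of `U`. -/
noncomputable def etaF (t : F) : ℂ := ∑ u ∈ U, ψ (t * u)

theorem etaF_conj (t : F) : conj (etaF ψ U t) = ∑ v ∈ U, ψ (-(t * v)) := by
  unfold etaF
  rw [map_sum]
  exact Finset.sum_congr rfl fun v _ => (AddChar.map_neg_eq_conj ψ _).symm

theorem etaF_zero : etaF ψ U 0 = (U.card : ℂ) := by
  simp [etaF]

theorem etaF_parseval_C (hψ : ψ.IsPrimitive) :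
    ∑ t : F, etaF ψ U t * conj (etaF ψ U t) = (Fintype.card F : ℂ) * U.card := by
  have h1 : ∀ t : F, etaF ψ U t * conj (etaF ψ U t) = ∑ u ∈ U, ∑ v ∈ U, ψ (t * (u - v)) := by
    intro t
    rw [etaF_conj, etaF, Finset.sum_mul_sum]
    refine Finset.sum_congr rfl fun u _ => Finset.sum_congr rfl fun v _ => ?_
    rw [← AddChar.map_add_eq_mul]
    congr 1
    ring
  simp_rw [h1]
  rw [Finset.sum_comm]
  have h2 : ∀ u ∈ U, ∑ t : F, ∑ v ∈ U, ψ (t * (u - v)) = (Fintype.card F : ℂ) := by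
    intro u hu
    rw [Finset.sum_comm]
    have : ∀ v ∈ U, ∑ t : F, ψ (t * (u - v)) = if v = u then (Fintype.card F : ℂ) else 0 := by
      intro v _
      rw [AddChar.sum_mulShift _ hψ]
      simp [sub_eq_zero, eq_comm]
    rw [Finset.sum_congr rfl this, Finset.sum_ite_eq' U u, if_pos hu]
  rw [Finset.sum_congr rfl h2, Finset.sum_const, nsmul_eq_mul, mul_comm]

theorem etaF_parseval (hψ : ψ.IsPrimitive) :
    ∑ t : F, ‖etaF ψ U t‖ ^ 2 = (Fintype.card F : ℝ) * U.card := by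
  have h := etaF_parseval_C ψ U hψ
  simp_rw [Complex.mul_conj'] at h
  exact_mod_cast h

variable {U}

theorem etaF_mul_invariant (hUmul : ∀ u ∈ U, ∀ v ∈ U, u * v ∈ U) (hUinv : ∀ u ∈ U, u⁻¹ ∈ U)
    (hU0 : (0 : F) ∉ U) (w : F) (hw : w ∈ U) (t : F) : etaF ψ U (t * w) = etaF ψ U t := by
  unfold etaF
  have hw0 : w ≠ 0 := fun h => hU0 (h ▸ hw)
  refine Finset.sum_nbij' (fun u => w * u) (fun u => w⁻¹ * u) ?_ ?_ ?_ ?_ ?_
  · exact fun u hu => hUmul _ hw _ hu
  · exact fun u hu => hUmul _ (hUinv _ hw) _ hu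
  · intro u _
    rw [← mul_assoc, inv_mul_cancel₀ hw0, one_mul]
  · intro u _
    rw [← mul_assoc, mul_inv_cancel₀ hw0, one_mul]
  · intro u _
    congr 1
    ring

/-- The pointwise bound on the nonzero Fourier coefficients. -/
theorem etaF_sq_le (hψ : ψ.IsPrimitive) (hUmul : ∀ u ∈ U, ∀ v ∈ U, u * v ∈ U)
    (hUinv : ∀ u ∈ U, u⁻¹ ∈ U) (hU0 : (0 : F) ∉ U) (hne : U.Nonempty) (t : F) (ht : t ≠ 0) :
    ‖etaF ψ U t‖ ^ 2 ≤ (Fintype.card F : ℝ) - U.card := by
  have hpar := etaF_parseval ψ U hψ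
  rw [← Finset.add_sum_erase _ _ (Finset.mem_univ (0 : F)), etaF_zero] at hpar
  have himg : ∑ s ∈ U.image (fun w => t * w), ‖etaF ψ U s‖ ^ 2 ≤
      ∑ s ∈ univ.erase (0 : F), ‖etaF ψ U s‖ ^ 2 := by
    apply Finset.sum_le_sum_of_subset_of_nonneg
    · intro s hs
      rw [Finset.mem_image] at hs
      obtain ⟨w, hw, rfl⟩ := hs
      have hw0 : w ≠ 0 := fun h => hU0 (h ▸ hw)
      simp [ht, hw0]
    · intro _ _ _
      positivity
  rw [Finset.sum_image (fun a _ b _ hab => mul_left_cancel₀ ht hab)] at himg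
  have hconst : ∑ w ∈ U, ‖etaF ψ U (t * w)‖ ^ 2 = (U.card : ℝ) * ‖etaF ψ U t‖ ^ 2 := by
    rw [Finset.sum_congr rfl fun w hw => by
      rw [etaF_mul_invariant ψ hUmul hUinv hU0 w hw t], Finset.sum_const, nsmul_eq_mul]
  rw [hconst] at himg
  have hN : (0 : ℝ) < U.card := by exact_mod_cast hne.card_pos
  have hnorm : ‖(U.card : ℂ)‖ = (U.card : ℝ) := by simp
  rw [hnorm] at hpar
  have : (U.card : ℝ) * ‖etaF ψ U t‖ ^ 2 ≤ (U.card : ℝ) * ((Fintype.card F : ℝ) - U.card) := by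
    nlinarith
  exact le_of_mul_le_mul_left this hN

/-- The Fourier expression for the number of three-term progressions. -/
theorem etaF_triple (hψ : ψ.IsPrimitive) :
    ∑ t : F, etaF ψ U t * etaF ψ U t * etaF ψ U (-2 * t) =
      (Fintype.card F : ℂ) * ∑ x ∈ U, ∑ y ∈ U, ∑ z ∈ U, if x + z - 2 * y = 0 then 1 else 0 := by
  have h1 : ∀ t : F, etaF ψ U t * etaF ψ U t * etaF ψ U (-2 * t) =
      ∑ x ∈ U, ∑ y ∈ U, ∑ z ∈ U, ψ (t * (x + z - 2 * y)) := by
    intro t
    unfold etaF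
    rw [Finset.sum_mul_sum, Finset.sum_mul]
    refine Finset.sum_congr rfl fun x _ => ?_
    rw [Finset.sum_mul_sum, Finset.sum_comm]
    refine Finset.sum_congr rfl fun y _ => Finset.sum_congr rfl fun z _ => ?_
    rw [← AddChar.map_add_eq_mul, ← AddChar.map_add_eq_mul]
    congr 1
    ring
  simp_rw [h1]
  rw [Finset.mul_sum, Finset.sum_comm]
  refine Finset.sum_congr rfl fun x _ => ?_
  rw [Finset.mul_sum, Finset.sum_comm]
  refine Finset.sum_congr rfl fun y _ => ?_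
  rw [Finset.mul_sum, Finset.sum_comm]
  refine Finset.sum_congr rfl fun z _ => ?_
  rw [AddChar.sum_mulShift _ hψ]
  split_ifs <;> simp

/-- Counting the progressions through `y`: all `y ∈ U` give the same number. -/
theorem card_ap_eq (hUmul : ∀ u ∈ U, ∀ v ∈ U, u * v ∈ U) (hUinv : ∀ u ∈ U, u⁻¹ ∈ U)
    (hU0 : (0 : F) ∉ U) (y : F) (hy : y ∈ U) :
    ((U.filter fun x => 2 * y - x ∈ U).card) = (U.filter fun a => 2 - a ∈ U).card := by
  have hy0 : y ≠ 0 := fun h => hU0 (h ▸ hy)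
  refine Finset.card_nbij' (fun x => y⁻¹ * x) (fun a => y * a) ?_ ?_ ?_ ?_
  · intro x hx
    simp only [coe_filter, Set.mem_setOf_eq, mem_coe, Finset.mem_filter] at hx ⊢
    refine ⟨hUmul _ (hUinv _ hy) _ hx.1, ?_⟩
    have : 2 - y⁻¹ * x = y⁻¹ * (2 * y - x) := by
      field_simp
    rw [this]
    exact hUmul _ (hUinv _ hy) _ hx.2
  · intro a ha
    simp only [coe_filter, Set.mem_setOf_eq, mem_coe, Finset.mem_filter] at ha ⊢
    refine ⟨hUmul _ hy _ ha.1, ?_⟩
    have : 2 * y - y * a = y * (2 - a) := by ring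
    rw [this]
    exact hUmul _ hy _ ha.2
  · intro x _
    simp only
    rw [← mul_assoc, mul_inv_cancel₀ hy0, one_mul]
  · intro a _
    simp only
    rw [← mul_assoc, inv_mul_cancel₀ hy0, one_mul]

theorem triple_count (hUmul : ∀ u ∈ U, ∀ v ∈ U, u * v ∈ U) (hUinv : ∀ u ∈ U, u⁻¹ ∈ U)
    (hU0 : (0 : F) ∉ U) :
    (∑ x ∈ U, ∑ y ∈ U, ∑ z ∈ U, if x + z - 2 * y = 0 then (1 : ℂ) else 0) =
      (U.card : ℂ) * ((U.filter fun a => 2 - a ∈ U).card : ℂ) := by
  rw [Finset.sum_comm]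
  have : ∀ y ∈ U, (∑ x ∈ U, ∑ z ∈ U, if x + z - 2 * y = 0 then (1 : ℂ) else 0) =
      ((U.filter fun a => 2 - a ∈ U).card : ℂ) := by
    intro y hy
    rw [← card_ap_eq hUmul hUinv hU0 y hy, Finset.card_filter]
    push_cast
    refine Finset.sum_congr rfl fun x _ => ?_
    have : ∀ z ∈ U, (if x + z - 2 * y = 0 then (1 : ℂ) else 0) =
        if z = 2 * y - x then 1 else 0 := by
      intro z _
      congr 1
      rw [eq_iff_iff]
      constructor
      · intro h
        linear_combination h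
      · intro h
        rw [h]
        ring
    rw [Finset.sum_congr rfl this, Finset.sum_ite_eq' U (2 * y - x)]
  rw [Finset.sum_congr rfl this, Finset.sum_const, nsmul_eq_mul]

/-- The Fourier inequality: `(M r - N²)² ≤ (M - N)³`, where `r` counts `a ∈ U` with `2 - a ∈ U`. -/
theorem ap_inequality (hψ : ψ.IsPrimitive) (h2 : (2 : F) ≠ 0)
    (hUmul : ∀ u ∈ U, ∀ v ∈ U, u * v ∈ U) (hUinv : ∀ u ∈ U, u⁻¹ ∈ U) (hU0 : (0 : F) ∉ U)
    (hne : U.Nonempty) :
    ((Fintype.card F : ℝ) * (U.filter fun a => 2 - a ∈ U).card - (U.card : ℝ) ^ 2) ^ 2 ≤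
      ((Fintype.card F : ℝ) - U.card) ^ 3 := by
  set M : ℝ := ((Fintype.card F : ℕ) : ℝ) with hM
  set N : ℝ := ((U.card : ℕ) : ℝ) with hN
  set r : ℝ := (((U.filter fun a => 2 - a ∈ U).card : ℕ) : ℝ) with hr
  have hN0 : 0 < N := by
    rw [hN]
    exact_mod_cast hne.card_pos
  have hmain := etaF_triple ψ (U := U) hψ
  rw [triple_count hUmul hUinv hU0, ← Finset.add_sum_erase _ _ (Finset.mem_univ (0 : F))] at hmain
  simp only [mul_zero, etaF_zero] at hmain
  set S : ℂ := ∑ t ∈ univ.erase (0 : F), etaF ψ U t * etaF ψ U t * etaF ψ U (-2 * t) with hS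
  have hD0 : ∀ t : F, t ≠ 0 → ‖etaF ψ U t‖ ^ 2 ≤ M - N := fun t ht =>
    etaF_sq_le ψ hψ hUmul hUinv hU0 hne t ht
  have hD : 0 ≤ M - N := by
    -- `M - N` bounds a square as soon as a nonzero element exists; `1 ≠ 0`.
    have := hD0 1 one_ne_zero
    exact le_trans (by positivity) this
  have hpar : ∑ t ∈ univ.erase (0 : F), ‖etaF ψ U t‖ ^ 2 = N * (M - N) := by
    have := etaF_parseval ψ U hψ
    rw [← Finset.add_sum_erase _ _ (Finset.mem_univ (0 : F)), etaF_zero] at this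
    have hnorm : ‖(U.card : ℂ)‖ = N := by simp [hN]
    rw [hnorm] at this
    linear_combination this
  have hSbd : ‖S‖ ≤ Real.sqrt (M - N) * (N * (M - N)) := by
    calc ‖S‖ ≤ ∑ t ∈ univ.erase (0 : F), ‖etaF ψ U t * etaF ψ U t * etaF ψ U (-2 * t)‖ :=
          norm_sum_le _ _
      _ ≤ ∑ t ∈ univ.erase (0 : F), Real.sqrt (M - N) * ‖etaF ψ U t‖ ^ 2 := by
          refine Finset.sum_le_sum fun t ht => ?_
          have ht0 : t ≠ 0 := (Finset.mem_erase.1 ht).1
          have h2t : -2 * t ≠ 0 := mul_ne_zero (neg_ne_zero.2 h2) ht0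
          have hb : ‖etaF ψ U (-2 * t)‖ ≤ Real.sqrt (M - N) := by
            apply Real.le_sqrt_of_sq_le
            exact hD0 _ h2t
          rw [norm_mul, norm_mul]
          have : ‖etaF ψ U t‖ * ‖etaF ψ U t‖ = ‖etaF ψ U t‖ ^ 2 := by ring
          rw [this, mul_comm]
          exact mul_le_mul_of_nonneg_right hb (by positivity)
      _ = Real.sqrt (M - N) * (N * (M - N)) := by
          rw [← Finset.mul_sum, hpar]
  have hSeq : S = ((M * (N * r) - N ^ 3 : ℝ) : ℂ) := by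
    push_cast
    rw [hM, hN, hr]
    push_cast
    linear_combination hmain
  have hSnorm : ‖S‖ = |M * (N * r) - N ^ 3| := by
    rw [hSeq, Complex.norm_real, Real.norm_eq_abs]
  rw [hSnorm] at hSbd
  have hsq : (M * (N * r) - N ^ 3) ^ 2 ≤ (Real.sqrt (M - N) * (N * (M - N))) ^ 2 := by
    rw [← sq_abs (M * (N * r) - N ^ 3)]
    exact pow_le_pow_left₀ (abs_nonneg _) hSbd 2
  rw [mul_pow, Real.sq_sqrt hD] at hsq
  have : N ^ 2 * (M * r - N ^ 2) ^ 2 ≤ N ^ 2 * (M - N) ^ 3 := by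
    nlinarith
  exact le_of_mul_le_mul_left this (by positivity)

end Fourier

end Cfsg.Agent.Lib.OddLocal
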