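import Cfsg.Agent.Lib.OddLocal.Norm1
import Cfsg.Agent.Lib.OddLocal.Norm2
import Mathlib.Algebra.Polynomial.SpecificDegree
import Mathlib.RingTheory.AdjoinRoot
import Mathlib.FieldTheory.Finite.Basic

/-!
The set of `a` with `N(a) = N(2 - a) = 1` in `GaloisField p q` has at least two elements.
-/

namespace Cfsg.Agent.Lib.OddLocal

open Polynomial

set_option linter.unusedSectionVars false
set_option linter.deprecated false

section Q5

variable (p q : ℕ) [Fact p.Prime] [Fact q.Prime]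

local notation "𝔽" => GaloisField p q

local notation "ι" => algebraMap (ZMod p) (GaloisField p q)

theorem norm_subgroup_card [Fintype 𝔽] [DecidableEq 𝔽] :
    (Finset.univ.filter fun x : 𝔽 => Algebra.norm (ZMod p) x = 1).card * (p - 1) = p ^ q - 1 := by
  classical
  have hq0 : q ≠ 0 := (Fact.out : q.Prime).ne_zero
  let f : 𝔽ˣ →* (ZMod p)ˣ := Units.map (Algebra.norm (ZMod p) (S := 𝔽))
  have hf : Function.Surjective f := FiniteField.unitsMap_norm_surjective (ZMod p) 𝔽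
  have h1 : Nat.card f.ker * f.ker.index = Nat.card 𝔽ˣ := Subgroup.card_mul_index _
  have h2 : f.ker.index = p - 1 := by
    rw [Subgroup.index_ker, MonoidHom.range_eq_top.2 hf, Subgroup.card_top, Nat.card_eq_fintype_card,
      ZMod.card_units]
  have h3 : Nat.card 𝔽ˣ = p ^ q - 1 := by
    rw [Nat.card_units, GaloisField.card p q hq0]
  have hmem : ∀ u : 𝔽ˣ, u ∈ f.ker ↔ Algebra.norm (ZMod p) (u : 𝔽) = 1 := by
    intro u
    rw [MonoidHom.mem_ker, Units.ext_iff]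
    simp [f]
  have h4 : Nat.card f.ker = (Finset.univ.filter fun x : 𝔽 => Algebra.norm (ZMod p) x = 1).card := by
    set S := Finset.univ.filter fun x : 𝔽 => Algebra.norm (ZMod p) x = 1 with hS
    have h0 : ∀ x : 𝔽, Algebra.norm (ZMod p) x = 1 → x ≠ 0 := by
      rintro x hx rfl
      rw [Algebra.norm_zero] at hx
      exact zero_ne_one hx
    let e : f.ker ≃ {x // x ∈ S} :=
      { toFun := fun u => ⟨(u.1 : 𝔽), by
          rw [hS, Finset.mem_filter]
          exact ⟨Finset.mem_univ _, (hmem _).1 u.2⟩⟩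
        invFun := fun x => ⟨Units.mk0 x.1 (h0 _ (Finset.mem_filter.1 x.2).2), by
          rw [hmem]
          exact (Finset.mem_filter.1 x.2).2⟩
        left_inv := fun u => by
          ext
          simp
        right_inv := fun x => by
          ext
          simp }
    rw [Nat.card_congr e, Nat.card_eq_fintype_card, Fintype.card_coe]
  rw [← h4, ← h2, h1, h3]

theorem two_ne_zero_galois (hp : p ≠ 2) : (2 : 𝔽) ≠ 0 := by
  intro h
  have h2 : ((2 : ℕ) : 𝔽) = 0 := by exact_mod_cast h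
  rw [CharP.cast_eq_zero_iff 𝔽 p] at h2
  exact hp ((Nat.prime_dvd_prime_iff_eq (Fact.out) Nat.prime_two).1 h2)

/-- The arithmetic for `q ≥ 5`. -/
theorem ap_arith (p q M N : ℕ) (hp : 3 ≤ p) (hq : 5 ≤ q) (hM : M = p ^ q) (hN : N * (p - 1) = M - 1)
    (h : ((M : ℝ) * 1 - (N : ℝ) ^ 2) ^ 2 ≤ ((M : ℝ) - N) ^ 3) : False := by
  obtain ⟨k, rfl⟩ : ∃ k, q = k + 5 := ⟨q - 5, by omega⟩
  have hMge : 1 ≤ M := by
    rw [hM]
    exact Nat.one_le_pow _ _ (by omega)
  have hPR : (3 : ℝ) ≤ (p : ℝ) := by exact_mod_cast hp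
  set P : ℝ := (p : ℝ) with hP
  set W : ℝ := P ^ (k + 3) with hW
  have hW3 : P ^ 3 ≤ W := by
    rw [hW]
    exact pow_le_pow_right₀ (by linarith) (by omega)
  have hP3 : 3 * P ^ 2 ≤ P ^ 3 := by nlinarith [sq_nonneg P]
  have hP2 : 9 ≤ P ^ 2 := by nlinarith
  have hW27 : 27 ≤ W := by nlinarith
  have hMR : (M : ℝ) = P ^ 2 * W := by
    rw [hM, hW, hP]
    push_cast
    ring
  have hNR : (N : ℝ) * (P - 1) = M - 1 := by
    have h1 : (N : ℝ) * ((p - 1 : ℕ) : ℝ) = ((M - 1 : ℕ) : ℝ) := by exact_mod_cast hN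
    rw [Nat.cast_sub (by omega : 1 ≤ p), Nat.cast_sub hMge] at h1
    simpa using h1
  have hN0 : (0 : ℝ) ≤ N := Nat.cast_nonneg _
  have hNge : P * W ≤ N := by
    have h1 : (N - P * W) * (P - 1) = P * W - 1 := by
      rw [sub_mul, hNR, hMR]
      ring
    have h2 : 0 ≤ P * W - 1 := by nlinarith
    by_contra hlt
    push Not at hlt
    have h3 : (N - P * W) < 0 := by linarith
    have h4 : (N - P * W) * (P - 1) < 0 := mul_neg_of_neg_of_pos h3 (by linarith)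
    linarith
  have hNle : (N : ℝ) ≤ M := by
    have hM1 : (1 : ℝ) ≤ M := by exact_mod_cast hMge
    nlinarith
  have hMpos : (0 : ℝ) < M := by
    have : (1 : ℝ) ≤ M := by exact_mod_cast hMge
    linarith
  have hx : (M : ℝ) * (W - 1) ≤ (N : ℝ) ^ 2 - M := by
    have : (P * W) ^ 2 ≤ (N : ℝ) ^ 2 := pow_le_pow_left₀ (by positivity) hNge 2
    rw [hMR]
    nlinarith
  have hx0 : 0 ≤ (M : ℝ) * (W - 1) := mul_nonneg hMpos.le (by linarith)
  have hx2 : ((M : ℝ) * (W - 1)) ^ 2 ≤ ((M : ℝ) * 1 - (N : ℝ) ^ 2) ^ 2 := by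
    have : ((M : ℝ) * 1 - (N : ℝ) ^ 2) ^ 2 = ((N : ℝ) ^ 2 - M) ^ 2 := by ring
    rw [this]
    exact pow_le_pow_left₀ hx0 hx 2
  have hD : ((M : ℝ) - N) ^ 3 ≤ (M : ℝ) ^ 3 :=
    pow_le_pow_left₀ (by linarith) (by linarith) 3
  have h5 : ((M : ℝ) * (W - 1)) ^ 2 ≤ (M : ℝ) ^ 3 := hx2.trans (h.trans hD)
  have h6 : (W - 1) ^ 2 ≤ (M : ℝ) := by
    have h7 : (M : ℝ) ^ 2 * (W - 1) ^ 2 ≤ (M : ℝ) ^ 2 * M := by
      calc (M : ℝ) ^ 2 * (W - 1) ^ 2 = ((M : ℝ) * (W - 1)) ^ 2 := by ring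
        _ ≤ (M : ℝ) ^ 3 := h5
        _ = (M : ℝ) ^ 2 * M := by ring
    exact le_of_mul_le_mul_left h7 (by positivity)
  rw [hMR] at h6
  nlinarith

variable {p q} in
theorem s1471_q5 (hp : p ≠ 2) (hq : 5 ≤ q) :
    2 ≤ Set.ncard {a : GaloisField p q | Algebra.norm (ZMod p) a = 1 ∧ Algebra.norm (ZMod p) (2 - a) = 1} := by
  classical
  have hq0 : q ≠ 0 := (Fact.out : q.Prime).ne_zero
  have hp3 : 3 ≤ p := by
    have := (Fact.out : p.Prime).two_le
    omega
  haveI : Fintype 𝔽 := Fintype.ofFinite _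
  let U : Finset 𝔽 := Finset.univ.filter fun x : 𝔽 => Algebra.norm (ZMod p) x = 1
  have hmemU : ∀ x, x ∈ U ↔ Algebra.norm (ZMod p) x = 1 := by
    intro x
    simp [U]
  have hUmul : ∀ u ∈ U, ∀ v ∈ U, u * v ∈ U := by
    intro u hu v hv
    rw [hmemU] at hu hv ⊢
    rw [map_mul, hu, hv, one_mul]
  have hU0 : (0 : 𝔽) ∉ U := by
    rw [hmemU, Algebra.norm_zero]
    exact zero_ne_one
  have hUinv : ∀ u ∈ U, u⁻¹ ∈ U := by
    intro u hu
    have hu0 : u ≠ 0 := fun h => hU0 (h ▸ hu)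
    rw [hmemU] at hu ⊢
    have : Algebra.norm (ZMod p) u * Algebra.norm (ZMod p) u⁻¹ = 1 := by
      rw [← map_mul, mul_inv_cancel₀ hu0, map_one]
    rwa [hu, one_mul] at this
  have h1U : (1 : 𝔽) ∈ U := by
    rw [hmemU, map_one]
  have hE : {a : 𝔽 | Algebra.norm (ZMod p) a = 1 ∧ Algebra.norm (ZMod p) (2 - a) = 1} =
      ((U.filter fun a => 2 - a ∈ U : Finset 𝔽) : Set 𝔽) := by
    ext a
    simp only [Set.mem_setOf_eq, Finset.coe_filter, hmemU]
  rw [hE, Set.ncard_coe_finset]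
  by_contra hlt
  push Not at hlt
  have hone : (1 : 𝔽) ∈ U.filter fun a => 2 - a ∈ U := by
    rw [Finset.mem_filter]
    refine ⟨h1U, ?_⟩
    have : (2 : 𝔽) - 1 = 1 := by norm_num
    rwa [this]
  have hcard1 : (U.filter fun a => 2 - a ∈ U).card = 1 := by
    have : 0 < (U.filter fun a => 2 - a ∈ U).card := Finset.card_pos.2 ⟨_, hone⟩
    omega
  -- a primitive additive character
  obtain ⟨ψ, hψ⟩ := (AddChar.exists_apply_ne_zero (a := (1 : 𝔽))).2 one_ne_zero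
  have hprim : ψ.IsPrimitive := AddChar.IsPrimitive.of_ne_one (AddChar.ne_one_iff.2 ⟨1, hψ⟩)
  have hineq := ap_inequality ψ hprim (two_ne_zero_galois p q hp) hUmul hUinv hU0 ⟨1, h1U⟩
  rw [hcard1] at hineq
  have hMcard : Fintype.card 𝔽 = p ^ q := by
    rw [← Nat.card_eq_fintype_card, GaloisField.card p q hq0]
  have hNcard : U.card * (p - 1) = Fintype.card 𝔽 - 1 := by
    rw [hMcard]
    exact norm_subgroup_card p q
  refine ap_arith p q (Fintype.card 𝔽) U.card hp3 hq hMcard hNcard ?_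
  simpa using hineq

end Q5

end Cfsg.Agent.Lib.OddLocal
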