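import Cfsg.Agent.Lib.OddLocal.Norm3

/-!
The case `q = 3`: the polynomial `X³ - X + c`.
-/

namespace Cfsg.Agent.Lib.OddLocal

open Polynomial

set_option linter.unusedSectionVars false
set_option linter.deprecated false

section Q3

variable (p : ℕ) [Fact p.Prime]

local notation "𝔽" => GaloisField p 3

local notation "ι" => algebraMap (ZMod p) (GaloisField p 3)

/-- A Frobenius-fixed element lies in the prime field. -/
theorem exists_algebraMap_of_pow_eq (x : 𝔽) (hx : x ^ p = x) : ∃ t : ZMod p, ι t = x := by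
  classical
  by_contra hne
  push Not at hne
  have hp1 : 1 < p := (Fact.out : p.Prime).one_lt
  let P : 𝔽[X] := X ^ p - X
  have hPd : P.natDegree = p := FiniteField.X_pow_card_sub_X_natDegree_eq 𝔽 hp1
  have hP0 : P ≠ 0 := by
    intro h
    rw [h, natDegree_zero] at hPd
    omega
  let Z : Finset 𝔽 := insert x (Finset.univ.image ι)
  have hZcard : Z.card = p + 1 := by
    rw [Finset.card_insert_of_notMem, Finset.card_image_of_injective _ (algebraMap (ZMod p) 𝔽).injective,
      Finset.card_univ, ZMod.card]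
    rw [Finset.mem_image]
    rintro ⟨t, _, ht⟩
    exact hne t ht
  have hZ : Z.val ⊆ P.roots := by
    intro y hy
    have hy' : y ∈ Z := hy
    rw [mem_roots hP0]
    simp only [P, IsRoot.def, eval_sub, eval_pow, eval_X]
    rw [Finset.mem_insert, Finset.mem_image] at hy'
    rcases hy' with rfl | ⟨t, _, rfl⟩
    · rw [hx, sub_self]
    · rw [← map_pow, ZMod.pow_card, sub_self]
  have := card_le_degree_of_subset_roots hZ
  rw [hZcard, hPd] at this
  omega

/-- Vieta for three distinct roots of `X³ - X + c`. -/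
theorem vieta_cubic {K : Type*} [Field K] (r₀ r₁ r₂ c : K) (h₀ : r₀ ^ 3 - r₀ + c = 0)
    (h₁ : r₁ ^ 3 - r₁ + c = 0) (h₂ : r₂ ^ 3 - r₂ + c = 0) (d01 : r₀ ≠ r₁) (d02 : r₀ ≠ r₂)
    (d12 : r₁ ≠ r₂) (x : K) : (r₀ - x) * (r₁ - x) * (r₂ - x) = -(x ^ 3 - x + c) := by
  have hA : r₀ ^ 2 + r₀ * r₁ + r₁ ^ 2 = 1 := by
    have : (r₀ - r₁) * (r₀ ^ 2 + r₀ * r₁ + r₁ ^ 2 - 1) = 0 := by linear_combination h₀ - h₁
    have := (mul_eq_zero.1 this).resolve_left (sub_ne_zero.2 d01)
    linear_combination this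
  have hB : r₀ ^ 2 + r₀ * r₂ + r₂ ^ 2 = 1 := by
    have : (r₀ - r₂) * (r₀ ^ 2 + r₀ * r₂ + r₂ ^ 2 - 1) = 0 := by linear_combination h₀ - h₂
    have := (mul_eq_zero.1 this).resolve_left (sub_ne_zero.2 d02)
    linear_combination this
  have hC : r₀ + r₁ + r₂ = 0 := by
    have : (r₁ - r₂) * (r₀ + r₁ + r₂) = 0 := by linear_combination hA - hB
    exact (mul_eq_zero.1 this).resolve_left (sub_ne_zero.2 d12)
  have hr₂ : r₂ = -r₀ - r₁ := by linear_combination hC
  subst hr₂
  have hc : c = r₀ - r₀ ^ 3 := by linear_combination h₀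
  subst hc
  linear_combination (x - r₀) * hA

/-- There is `c` for which `X³ - X + c` has no root in the prime field. -/
theorem exists_no_root_cubic : ∃ c : ZMod p, ∀ t : ZMod p, t ^ 3 - t + c ≠ 0 := by
  have hni : ¬ Function.Injective (fun t : ZMod p => t ^ 3 - t) := by
    intro hi
    have : (0 : ZMod p) = 1 := hi (by simp)
    exact zero_ne_one this
  have hns : ¬ Function.Surjective (fun t : ZMod p => t ^ 3 - t) := fun hs =>
    hni (Finite.injective_iff_surjective.2 hs)
  simp only [Function.Surjective] at hns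
  push Not at hns
  obtain ⟨d, hd⟩ := hns
  refine ⟨-d, fun t h => hd t ?_⟩
  linear_combination h

/-- The cubic has a root in the field with `p³` elements. -/
theorem exists_root_cubic (c : ZMod p) (hc : ∀ t : ZMod p, t ^ 3 - t + c ≠ 0) :
    ∃ s : 𝔽, s ^ 3 - s + ι c = 0 := by
  classical
  let T : (ZMod p)[X] := X ^ 3 - X + C c
  have hTd : T.natDegree = 3 := by
    simp only [T]
    compute_degree!
  have hTm : T.Monic := by
    simp only [T]
    monicity!
  have hT : Irreducible T := by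
    rw [hTm.irreducible_iff_roots_eq_zero_of_degree_le_three (by omega) (by omega)]
    rw [Multiset.eq_zero_iff_forall_notMem]
    intro t ht
    rw [mem_roots hTm.ne_zero] at ht
    simp only [T, IsRoot.def, eval_add, eval_sub, eval_pow, eval_X, eval_C] at ht
    exact hc t ht
  haveI : Fact (Irreducible T) := ⟨hT⟩
  let pb := AdjoinRoot.powerBasis hTm.ne_zero
  have hfin : Module.finrank (ZMod p) (AdjoinRoot T) = 3 := by
    rw [pb.finrank, AdjoinRoot.powerBasis_dim, hTd]
  haveI : Module.Finite (ZMod p) (AdjoinRoot T) := pb.finite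
  have hcard : Nat.card (AdjoinRoot T) = p ^ 3 := by
    rw [Module.natCard_eq_pow_finrank (K := ZMod p), hfin, Nat.card_zmod]
  let e := GaloisField.algEquivGaloisField p 3 hcard
  refine ⟨e (AdjoinRoot.root T), ?_⟩
  have hroot : (AdjoinRoot.root T) ^ 3 - AdjoinRoot.root T + algebraMap (ZMod p) (AdjoinRoot T) c = 0 := by
    have h := AdjoinRoot.eval₂_root T
    simp only [T, eval₂_add, eval₂_sub, eval₂_pow, eval₂_X, eval₂_C] at h
    exact h
  have := congrArg e hroot
  rw [map_add, map_sub, map_pow, AlgEquiv.commutes, map_zero] at this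
  exact this

theorem s1471_q3 (hp : p ≠ 2) :
    ∃ a : 𝔽, a ≠ 1 ∧ Algebra.norm (ZMod p) a = 1 ∧ Algebra.norm (ZMod p) (2 - a) = 1 := by
  classical
  obtain ⟨c, hc⟩ := exists_no_root_cubic p
  obtain ⟨s, hs⟩ := exists_root_cubic p c hc
  have hFix : ∀ t : ZMod p, (ι t) ^ p = ι t := fun t => by
    rw [← map_pow, ZMod.pow_card]
  have hFrob : ∀ x : 𝔽, x ^ 3 - x + ι c = 0 → (x ^ p) ^ 3 - x ^ p + ι c = 0 := by
    intro x hx
    have h := congrArg (fun y => y ^ p) hx
    beta_reduce at h
    have hp0 : (0 : 𝔽) ^ p = 0 := zero_pow (Fact.out : p.Prime).ne_zero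
    rw [add_pow_char, sub_pow_char, hFix, hp0, ← pow_mul, mul_comm 3, pow_mul] at h
    exact h
  have hcard : Nat.card 𝔽 = p ^ 3 := GaloisField.card p 3 (by norm_num)
  have hp3 : s ^ (p ^ 3) = s := by
    haveI : Fintype 𝔽 := Fintype.ofFinite _
    have := FiniteField.pow_card s
    rwa [← Nat.card_eq_fintype_card, hcard] at this
  have hinj : ∀ x y : 𝔽, x ^ p = y ^ p → x = y := fun x y h => by
    exact (frobenius_inj 𝔽 p) h
  -- `s` is not fixed by the Frobenius
  have hnf : s ^ p ≠ s := by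
    intro h
    obtain ⟨t, rfl⟩ := exists_algebraMap_of_pow_eq p s h
    apply hc t
    apply (algebraMap (ZMod p) 𝔽).injective
    simpa using hs
  set r₀ := s with hr₀
  set r₁ := s ^ p with hr₁
  set r₂ := s ^ (p ^ 2) with hr₂
  have hr12 : r₂ = r₁ ^ p := by
    rw [hr₂, hr₁, ← pow_mul, pow_two]
  have hr20 : r₂ ^ p = r₀ := by
    rw [hr₂, ← pow_mul, ← pow_succ]
    exact hp3
  have h₀ : r₀ ^ 3 - r₀ + ι c = 0 := hs
  have h₁ : r₁ ^ 3 - r₁ + ι c = 0 := hFrob _ hs
  have h₂ : r₂ ^ 3 - r₂ + ι c = 0 := by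
    rw [hr12]
    exact hFrob _ h₁
  have d01 : r₀ ≠ r₁ := fun h => hnf h.symm
  have d12 : r₁ ≠ r₂ := by
    intro h
    rw [hr12] at h
    exact hnf (hinj _ _ h.symm)
  have d02 : r₀ ≠ r₂ := by
    intro h
    apply hnf
    have : r₂ ^ p = r₂ := by rw [hr20]; exact h
    rw [← h] at this
    exact this
  have hV := vieta_cubic r₀ r₁ r₂ (ι c) h₀ h₁ h₂ d01 d02 d12
  -- the norm of `s - x` for `x` in the prime field
  have hN : ∀ t : ZMod p, ι (Algebra.norm (ZMod p) (s - ι t)) = -((ι t) ^ 3 - ι t + ι c) := by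
    intro t
    rw [algebraMap_norm_galois, ← hV (ι t)]
    simp only [Finset.prod_range_succ, Finset.prod_range_zero, one_mul]
    have hfix2 : ∀ i, (ι t) ^ (p ^ i) = ι t := by
      intro i
      induction i with
      | zero => simp
      | succ k ih => rw [pow_succ, pow_mul, ih, hFix]
    rw [sub_pow_char_pow, sub_pow_char_pow, sub_pow_char_pow, hfix2, hfix2, hfix2]
    simp only [pow_zero, pow_one]
    rfl
  have hNc : ∀ t : ZMod p, t ^ 3 = t → Algebra.norm (ZMod p) (s - ι t) = -c := by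
    intro t ht
    apply (algebraMap (ZMod p) 𝔽).injective
    rw [hN t, ← map_pow, ht, map_neg]
    ring
  have hc0 : c ≠ 0 := by
    have := hc 0
    simpa using this
  have hN0 : Algebra.norm (ZMod p) s = -c := by
    have := hNc 0 (by simp)
    simpa using this
  have hN1 : Algebra.norm (ZMod p) (s - 1) = -c := by
    have := hNc 1 (by simp)
    simpa using this
  have hN2 : Algebra.norm (ZMod p) (s + 1) = -c := by
    have := hNc (-1) (by ring)
    simpa using this
  have hs0 : s ≠ 0 := by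
    intro h
    apply hnf
    rw [hr₁, h, zero_pow (Fact.out : p.Prime).ne_zero]
    exact h.symm
  have hnc : -c ≠ 0 := neg_ne_zero.2 hc0
  refine ⟨(s + 1) / s, ?_, ?_, ?_⟩
  · intro h
    rw [div_eq_one_iff_eq hs0] at h
    exact one_ne_zero (by linear_combination h : (1 : 𝔽) = 0)
  · have h : (s + 1) / s * s = s + 1 := div_mul_cancel₀ _ hs0
    have h' := congrArg (Algebra.norm (ZMod p)) h
    rw [map_mul, hN0, hN2] at h'
    exact mul_right_cancel₀ hnc (h'.trans (one_mul _).symm)
  · have h : (2 - (s + 1) / s) * s = s - 1 := by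
      field_simp
      ring
    have h' := congrArg (Algebra.norm (ZMod p)) h
    rw [map_mul, hN0, hN1] at h'
    exact mul_right_cancel₀ hnc (h'.trans (one_mul _).symm)

end Q3

theorem s1471_core (p q : ℕ) [Fact p.Prime] [Fact q.Prime] (hp : p ≠ 2) (hq : q ≠ 2) :
    2 ≤ Set.ncard {a : GaloisField p q | Algebra.norm (ZMod p) a = 1 ∧ Algebra.norm (ZMod p) (2 - a) = 1} := by
  have hqp : q.Prime := Fact.out
  by_cases hq3 : q = 3
  · subst hq3
    obtain ⟨a, ha1, haN, ha2⟩ := s1471_q3 p hp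
    have hfin : {a : GaloisField p 3 | Algebra.norm (ZMod p) a = 1 ∧ Algebra.norm (ZMod p) (2 - a) = 1}.Finite :=
      Set.toFinite _
    have := (Set.one_lt_ncard hfin).2 ⟨a, ⟨haN, ha2⟩, 1, ⟨map_one _, by
      have : (2 : GaloisField p 3) - 1 = 1 := by norm_num
      rw [this, map_one]⟩, ha1⟩
    exact this
  · have hq5 : 5 ≤ q := by
      have h2 := hqp.two_le
      by_contra hlt
      push Not at hlt
      have h4 : q = 4 := by omega
      rw [h4] at hqp
      have := hqp.eq_one_or_self_of_dvd 2 (by norm_num)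
      omega
    exact s1471_q5 hp hq5

end Cfsg.Agent.Lib.OddLocal
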