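import Cfsg.Agent.Lib.OddLocal.Functor
import Cfsg.Agent.S1468

/-!
Puig's theorem for solvable groups of odd order.
-/

set_option autoImplicit false
set_option linter.unusedSectionVars false
set_option linter.style.haveILetI false

namespace Cfsg.Agent.Lib.OddLocal

open Subgroup Cfsg

open scoped commutatorElement

universe u

/-- The centre of the Puig subgroup. -/
def centerPuig (P : Type u) [Group P] : Subgroup P :=
  (center (puigSubgroup P)).map (puigSubgroup P).subtype

theorem mem_centerPuig {P : Type u} [Group P] {x : P} :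
    x ∈ centerPuig P ↔ x ∈ puigSubgroup P ∧ ∀ y ∈ puigSubgroup P, x * y = y * x := by
  constructor
  · rintro ⟨⟨z, hz⟩, hz', rfl⟩
    refine ⟨hz, fun y hy => ?_⟩
    have := Subgroup.mem_center_iff.mp hz' ⟨y, hy⟩
    exact (congrArg Subtype.val this).symm
  · rintro ⟨hx, h⟩
    refine ⟨⟨x, hx⟩, ?_, rfl⟩
    refine Subgroup.mem_center_iff.mpr ?_
    rintro ⟨y, hy⟩
    exact Subtype.ext (h y hy).symm

theorem centerPuig_isoInv : IsIsoInv centerPuig := by
  intro P P' _ _ _ _ e
  have h := puigSubgroup_map_equiv e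
  ext x
  constructor
  · rintro ⟨y, hy, rfl⟩
    have hy := mem_centerPuig.mp hy
    refine mem_centerPuig.mpr ?_
    refine ⟨?_, ?_⟩
    · rw [← h]
      exact ⟨y, hy.1, rfl⟩
    · intro z hz
      rw [← h] at hz
      obtain ⟨w, hw, rfl⟩ := hz
      have := hy.2 w hw
      have h2 := congrArg e this
      simpa using h2
  · intro hx
    rw [mem_centerPuig] at hx
    refine ⟨e.symm x, ?_, by simp⟩
    refine mem_centerPuig.mpr ?_
    refine ⟨?_, ?_⟩
    · rw [← h] at hx
      obtain ⟨⟨w, hw, rfl⟩, _⟩ := hx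
      simpa using hw
    · intro z hz
      have hz' : e z ∈ puigSubgroup P' := by
        rw [← h]
        exact ⟨z, hz, rfl⟩
      have := hx.2 _ hz'
      apply e.injective
      simpa using this

theorem centerPuig_le_puigLower (P : Type u) [Group P] [Finite P] : centerPuig P ≤ puigLower P := by
  rw [← puigStep_puigSubgroup]
  apply le_sSup
  refine ⟨?_, ?_⟩
  · refine ⟨⟨?_⟩⟩
    rintro ⟨a, ha⟩ ⟨b, hb⟩
    apply Subtype.ext
    have ha' := mem_centerPuig.mp ha
    have hb' := mem_centerPuig.mp hb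
    exact ha'.2 b hb'.1
  · intro x hx
    apply Cfsg.Agent.Lib.Coprime.mem_normalizer_of_conj_le
    intro z hz
    have hz' := mem_centerPuig.mp hz
    have : x * z * x⁻¹ = z := by
      rw [← hz'.2 x hx, mul_inv_cancel_right]
    rw [this]
    exact hz

variable {G : Type u} [Group G]

/-- The Puig subgroup, in the ambient group. -/
def LL (R : Subgroup G) : Subgroup G := (puigSubgroup R).map R.subtype

/-- The lower Puig subgroup, in the ambient group. -/
def Ll (R : Subgroup G) : Subgroup G := (puigLower R).map R.subtype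

theorem mem_Zf_centerPuig {R : Subgroup G} {z : G} :
    z ∈ Zf centerPuig R ↔ z ∈ LL R ∧ ∀ x ∈ LL R, z * x = x * z := by
  constructor
  · rintro ⟨y, hy, rfl⟩
    have hy' := mem_centerPuig.mp hy
    refine ⟨⟨y, hy'.1, rfl⟩, ?_⟩
    rintro _ ⟨w, hw, rfl⟩
    exact congrArg Subtype.val (hy'.2 w hw)
  · rintro ⟨⟨y, hy, rfl⟩, h⟩
    refine ⟨y, ?_, rfl⟩
    refine mem_centerPuig.mpr ?_
    refine ⟨hy, fun w hw => ?_⟩
    exact Subtype.ext (h _ ⟨w, hw, rfl⟩)

theorem Ll_eq [Finite G] (R : Subgroup G) :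
    Ll R = sSup {A : Subgroup G | IsMulCommutative A ∧ A ≤ R ∧ LL R ≤ normalizer (A : Set G)} := by
  rw [Ll, ← puigStep_puigSubgroup, puigStep_map_subtype]
  rfl

theorem LL_eq [Finite G] (R : Subgroup G) :
    LL R = sSup {A : Subgroup G | IsMulCommutative A ∧ A ≤ R ∧ Ll R ≤ normalizer (A : Set G)} := by
  rw [LL, ← puigStep_puigLower, puigStep_map_subtype]
  rfl

theorem LL_le (R : Subgroup G) : LL R ≤ R := by
  rintro _ ⟨x, _, rfl⟩
  exact x.2

theorem Ll_le_LL [Finite G] (R : Subgroup G) : Ll R ≤ LL R :=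
  Subgroup.map_mono puigLower_le_puigSubgroup

theorem Zf_centerPuig_le_Ll [Finite G] (R : Subgroup G) : Zf centerPuig R ≤ Ll R :=
  Subgroup.map_mono (centerPuig_le_puigLower R)

/-- Elements of a `p`-subgroup centralizing `L_*`. -/
theorem mem_Ll_of_centralizes [Finite G] {p : ℕ} [Fact p.Prime] {R : Subgroup G} (hR : IsPGroup p R) {z : G}
    (hz : z ∈ R) (h : ∀ x ∈ Ll R, z * x = x * z) : z ∈ Ll R := by
  obtain ⟨k, hk⟩ := puigSeq_stabilizes (G := R)
  have h1 := (hk (k + 1) (Nat.le_succ k)).1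
  have h2 : (⟨z, hz⟩ : R) ∈ centralizer (puigSeq R (2 * (k + 1)) : Set R) := by
    rw [Subgroup.mem_centralizer_iff]
    intro y hy
    rw [SetLike.mem_coe, h1] at hy
    exact Subtype.ext (h _ ⟨y, hy, rfl⟩).symm
  have h3 := centralizer_puigSeq_le p hR (2 * (k + 1)) (by omega) h2
  rw [h1] at h3
  exact ⟨_, h3, rfl⟩

/-- If `L(S) ≤ T ≤ S` then `L(T) = L(S)`. -/
theorem LL_le_of_le [Finite G] {S T : Subgroup G} (hTS : T ≤ S) (hLT : LL S ≤ T) : LL S ≤ LL T := by
  have hchain : ∀ i : ℕ, Lm T (2 * i) ≤ Ll S ∧ LL S ≤ Lm T (2 * i + 1) := by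
    intro i
    induction i with
    | zero =>
      refine ⟨?_, ?_⟩
      · change Lm T 0 ≤ _
        rw [Lm_zero]
        exact bot_le
      · change LL S ≤ Lm T 1
        rw [Lm_one]
        exact hLT
    | succ i ih =>
      obtain ⟨ih1, ih2⟩ := ih
      have e1 : 2 * (i + 1) = (2 * i + 1) + 1 := by ring
      have h1 : Lm T (2 * (i + 1)) ≤ Ll S := by
        rw [e1, Lm_succ T, Ll_eq S]
        apply sSup_le
        rintro B ⟨hc, hBT, hn⟩
        exact le_sSup ⟨hc, hBT.trans hTS, ih2.trans hn⟩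
      refine ⟨h1, ?_⟩
      rw [Lm_succ T, LL_eq S]
      apply sSup_le
      rintro B ⟨hc, hBS, hn⟩
      apply le_sSup
      have hBLL : B ≤ LL S := by
        rw [LL_eq S]
        exact le_sSup ⟨hc, hBS, hn⟩
      exact ⟨hc, hBLL.trans hLT, h1.trans hn⟩
  obtain ⟨k, hk⟩ := puigSeq_stabilizes (G := T)
  have := (hchain k).2
  rwa [Lm, (hk k le_rfl).2] at this

/-- **Puig's theorem**, `O_{p'}(G) = 1`. -/
theorem puig_core {p : ℕ} [Fact p.Prime] (hp : p ≠ 2) : ∀ (n : ℕ) (G : Type u) [Group G] [Finite G] [Group.IsSolvable G],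
    Nat.card G = n → Odd (Nat.card G) → pPrimeCore p G = ⊥ → ∀ S : Sylow p G, (Zf centerPuig (S : Subgroup G)).Normal := by
  classical
  intro n
  induction n using Nat.strong_induction_on with
  | _ n IH =>
    intro G _ _ _ hn hodd hO S
    set T := pCore p G with hT
    haveI hTn : T.Normal := Basic.pCore_normal p
    have hTp : IsPGroup p T := Basic.pCore_isPGroup p
    have hTS : T ≤ (S : Subgroup G) := Basic.pCore_le_sylow S
    obtain ⟨h1, h2, h3⟩ := Cfsg.Agent.S1468.result hodd p hp hO S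
    change Ll (S : Subgroup G) ≤ Ll T at h1
    change Ll T ≤ LL T at h2
    change LL T ≤ LL (S : Subgroup G) at h3
    set W := Zf centerPuig T with hW
    haveI hWn : W.Normal := Zf_normal centerPuig_isoInv T
    have hWT : W ≤ T := Zf_le _ _
    have hWp : IsPGroup p W := hTp.to_le hWT
    have hZW : Zf centerPuig (S : Subgroup G) ≤ W := by
      intro z hz
      rw [mem_Zf_centerPuig] at hz
      rw [hW, mem_Zf_centerPuig]
      have hz1 : z ∈ Ll (S : Subgroup G) := Zf_centerPuig_le_Ll _ (mem_Zf_centerPuig.mpr hz)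
      exact ⟨h2 (h1 hz1), fun x hx => hz.2 x (h3 hx)⟩
    have hWLl : W ≤ Ll (S : Subgroup G) := by
      intro z hz
      rw [hW, mem_Zf_centerPuig] at hz
      apply mem_Ll_of_centralizes S.isPGroup' (hTS (LL_le _ hz.1))
      intro x hx
      exact hz.2 x (h2 (h1 hx))
    obtain ⟨D, hDn, hTD, hAD, hfrat⟩ := quad_frattini hp hodd W hWp S
    have hLD : LL (S : Subgroup G) ≤ D := by
      rw [LL_eq]
      apply sSup_le
      rintro B ⟨hc, hBS, hnB⟩
      apply hAD B (S.isPGroup'.to_le hBS)
      intro b hb w hw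
      have h4 : w * b * w⁻¹ ∈ B := (Subgroup.mem_normalizer_iff.mp (hnB (hWLl hw)) b).mp hb
      have h5 : ⁅w, b⁆ ∈ B := B.mul_mem h4 (B.inv_mem hb)
      have h6 := hc.is_comm.comm (⟨⁅w, b⁆, h5⟩ : B) ⟨b, hb⟩
      have h7 := congrArg Subtype.val h6
      exact h7
    set Q := (S : Subgroup G) ⊓ D with hQ
    set M := normalizer (Q : Set G) with hM
    have hLQ : LL (S : Subgroup G) ≤ Q := le_inf (LL_le _) hLD
    by_cases hMtop : M = ⊤
    · -- `Q` is normal
      have hQn : Q.Normal := Subgroup.normalizer_eq_top_iff.mp hMtop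
      have hQp : IsPGroup p Q := S.isPGroup'.to_le inf_le_left
      have hQT : Q ≤ T := Basic.le_pCore hQn hQp
      have hLL : LL (S : Subgroup G) ≤ LL T := LL_le_of_le hTS (hLQ.trans hQT)
      have heq : LL (S : Subgroup G) = LL T := le_antisymm hLL h3
      have hZeq : Zf centerPuig (S : Subgroup G) = W := by
        ext z
        rw [mem_Zf_centerPuig, hW, mem_Zf_centerPuig, heq]
      rw [hZeq]
      exact hWn
    · -- the normalizer is proper
      have hSM : (S : Subgroup G) ≤ M := by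
        intro s hs
        apply Cfsg.Agent.Lib.Coprime.mem_normalizer_of_conj_le
        rintro x ⟨hxS, hxD⟩
        exact ⟨Subgroup.mul_mem _ (Subgroup.mul_mem _ hs hxS) (Subgroup.inv_mem _ hs), hDn.conj_mem x hxD s⟩
      have hcard : Nat.card M < n := by
        rw [← hn]
        have h4 : Nat.card M ≠ Nat.card G := by
          intro e
          apply hMtop
          exact Subgroup.eq_top_of_card_eq M e
        exact lt_of_le_of_ne (Subgroup.card_le_card_group M) h4
      have hMn := IH _ hcard M rfl (Odd.of_dvd_nat hodd (Subgroup.card_subgroup_dvd_card M))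
        (pPrimeCore_overgroup_eq_bot hO M (hTS.trans hSM)) (S.subtype hSM)
      have hN1 : M ≤ normalizer (Zf centerPuig (S : Subgroup G) : Set G) :=
        le_normalizer_Zf centerPuig_isoInv M (S : Subgroup G) hSM hMn
      have hN2 : centralizer (W : Set G) ≤ normalizer (Zf centerPuig (S : Subgroup G) : Set G) := by
        intro c hc
        apply Cfsg.Agent.Lib.Coprime.mem_normalizer_of_conj_le
        intro z hz
        have : c * z * c⁻¹ = z := by
          rw [(Subgroup.mem_centralizer_iff.mp hc z (hZW hz)).symm, mul_inv_cancel_right]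
        rw [this]
        exact hz
      rw [← Subgroup.normalizer_eq_top_iff, eq_top_iff, ← hfrat]
      exact sup_le hN1 hN2

end Cfsg.Agent.Lib.OddLocal
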