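import Cfsg.Agent.Lib.OddLocal.Rank2F

/-!
The core lemma on `p`-groups with few elements of order `p` commuting with a given element:
elements of `Γ` of order prime to `p` acting trivially on all `Γ`-sections of order `p` are trivial.
-/

set_option autoImplicit false
set_option linter.unusedSectionVars false
set_option linter.style.haveILetI false

namespace Cfsg.Agent.Lib.OddLocal

open Subgroup Cfsg Cfsg.Agent.Lib.Basic Cfsg.Agent.Lib.Coprime

open scoped commutatorElement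

universe u v

section CL

variable {Q : Type u} [Group Q] {Γ : Type v} [Group Γ]

/-- An invariant subgroup. -/
def InvOf (σ : Γ →* MulAut Q) (K : Subgroup Q) : Prop := ∀ g, ∀ t ∈ K, σ g t ∈ K

theorem InvOf.sup {σ : Γ →* MulAut Q} {K L : Subgroup Q} (hK : InvOf σ K) (hL : InvOf σ L) : InvOf σ (K ⊔ L) := by
  intro g t ht
  have h : K ⊔ L ≤ (K ⊔ L).comap (σ g).toMonoidHom :=
    sup_le (fun k hk => mem_sup_left (hK g k hk)) (fun l hl => mem_sup_right (hL g l hl))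
  exact h ht

/-- The action on an invariant subgroup. -/
def invAut (σ : Γ →* MulAut Q) (K : Subgroup Q) (hK : InvOf σ K) : Γ →* MulAut ↥K where
  toFun g :=
    { toFun := fun x => ⟨σ g x, hK g x x.2⟩
      invFun := fun x => ⟨σ g⁻¹ x, hK g⁻¹ x x.2⟩
      left_inv := fun x => Subtype.ext (by
        show σ g⁻¹ (σ g x) = x
        rw [← MulAut.mul_apply, ← map_mul, inv_mul_cancel, map_one, MulAut.one_apply])
      right_inv := fun x => Subtype.ext (by
        show σ g (σ g⁻¹ x) = x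
        rw [← MulAut.mul_apply, ← map_mul, mul_inv_cancel, map_one, MulAut.one_apply])
      map_mul' := fun x y => Subtype.ext (by simp) }
  map_one' := by
    apply MulEquiv.ext
    intro x
    apply Subtype.ext
    show σ 1 x = x
    rw [map_one, MulAut.one_apply]
  map_mul' := by
    intro g h
    apply MulEquiv.ext
    intro x
    apply Subtype.ext
    show σ (g * h) x = σ g (σ h x)
    rw [map_mul, MulAut.mul_apply]

theorem invAut_coe (σ : Γ →* MulAut Q) (K : Subgroup Q) (hK : InvOf σ K) (g : Γ) (x : ↥K) :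
    ((invAut σ K hK g x : ↥K) : Q) = σ g x := rfl

/-- The action on a quotient by an invariant normal subgroup. -/
noncomputable def quotAct {V : Type*} [Group V] (τ : Γ →* MulAut V) (N : Subgroup V) [hN' : N.Normal] (hN : InvOf τ N) :
    Γ →* MulAut (V ⧸ N) where
  toFun g := QuotientGroup.congr N N (τ g) (by
    apply le_antisymm
    · rintro _ ⟨t, ht, rfl⟩
      exact hN g t ht
    · intro t ht
      refine ⟨τ g⁻¹ t, hN g⁻¹ t ht, ?_⟩
      show τ g (τ g⁻¹ t) = t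
      rw [← MulAut.mul_apply, ← map_mul, mul_inv_cancel, map_one, MulAut.one_apply])
  map_one' := by
    apply MulEquiv.ext
    intro x
    obtain ⟨x', rfl⟩ := QuotientGroup.mk'_surjective N x
    show ((τ 1 x' : V) : V ⧸ N) = x'
    rw [map_one, MulAut.one_apply]
  map_mul' := by
    intro g h
    apply MulEquiv.ext
    intro x
    obtain ⟨x', rfl⟩ := QuotientGroup.mk'_surjective N x
    show ((τ (g * h) x' : V) : V ⧸ N) = ((τ g (τ h x') : V) : V ⧸ N)
    rw [map_mul, MulAut.mul_apply]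

theorem quotAct_mk {V : Type*} [Group V] (τ : Γ →* MulAut V) (N : Subgroup V) [hN' : N.Normal] (hN : InvOf τ N) (g : Γ)
    (x : V) : quotAct τ N hN g (x : V ⧸ N) = ((τ g x : V) : V ⧸ N) := rfl

/-- Elements acting trivially on all `Γ`-sections of order `p`. -/
theorem section_trivial (p : ℕ) [hp : Fact p.Prime] [Finite Q] (σ : Γ →* MulAut Q) (C D : Subgroup Q) (hC : InvOf σ C)
    (hD : InvOf σ D) [hDn : D.Normal] (hrel : D.relIndex C = p) (b : Γ)
    (hb₂ : ∀ (V : Type u) [Group V] [IsCyclic V] [Finite V], Nat.card V = p → ∀ ψ : Γ →* MulAut V, ψ b = 1) :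
    ∀ c ∈ C, c⁻¹ * σ b c ∈ D := by
  intro c hc
  set N := D.subgroupOf C with hN
  have hcard : Nat.card (↥C ⧸ N) = p := by
    rw [← Subgroup.index_eq_card, hN]
    exact hrel
  haveI : IsCyclic (↥C ⧸ N) := isCyclic_of_prime_card hcard
  have hinv : InvOf (invAut σ C hC) N := by
    intro g t ht
    rw [hN, Subgroup.mem_subgroupOf] at ht ⊢
    exact hD g _ ht
  have h1 := hb₂ (↥C ⧸ N) hcard (quotAct (invAut σ C hC) N hinv)
  have h2 := quotAct_mk (invAut σ C hC) N hinv b ⟨c, hc⟩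
  rw [h1, MulAut.one_apply, QuotientGroup.eq] at h2
  have h3 := Subgroup.mem_subgroupOf.1 h2
  simpa [invAut_coe] using h3

/-- The chain lemma. -/
theorem fix_of_comm_mem {p : ℕ} [hp : Fact p.Prime] (hQ : IsPGroup p Q) (β : MulAut Q) (n : ℕ) (hn : β ^ n = 1)
    (hcop : n.Coprime p) (L : Subgroup Q) (hL : ∀ l ∈ L, β l = l) (m : Q) (hm : m⁻¹ * β m ∈ L) : β m = m := by
  set l := m⁻¹ * β m with hl
  have hβm : β m = m * l := by rw [hl]; group
  have hlfix := hL l hm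
  have hk : ∀ k : ℕ, (β ^ k) m = m * l ^ k := by
    intro k
    induction k with
    | zero => simp
    | succ k ih =>
      rw [pow_succ', MulAut.mul_apply, ih, map_mul, map_pow, hlfix, hβm, pow_succ', mul_assoc]
  have h1 := hk n
  rw [hn, MulAut.one_apply] at h1
  have h2 : l ^ n = 1 := by
    have := mul_left_cancel (a := m) (b := 1) (c := l ^ n) (by rw [mul_one]; exact h1)
    exact this.symm
  obtain ⟨j, hj⟩ := hQ l
  have h3 : orderOf l = 1 :=
    Nat.eq_one_of_dvd_coprimes (hcop.pow_right j) (orderOf_dvd_of_pow_eq_one h2) (orderOf_dvd_of_pow_eq_one hj)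
  rw [hβm, orderOf_eq_one_iff.1 h3, mul_one]

variable [Finite Q]

/-- The main step of the core lemma. -/
theorem cl_step (p : ℕ) [hp : Fact p.Prime] (hp2 : p ≠ 2) (hQ : IsPGroup p Q) (σ : Γ →* MulAut Q) (x : Q)
    (T Z₀ : Subgroup Q) (hZ₀ : Nat.card Z₀ ≤ p) (hΩ : ∀ y ∈ T, y ^ p = 1 → x * y = y * x → y ∈ Z₀) (b : Γ) (n : ℕ)
    (hn : (σ b) ^ n = 1) (hcop : n.Coprime p)
    (hb₂ : ∀ (V : Type u) [Group V] [IsCyclic V] [Finite V], Nat.card V = p → ∀ ψ : Γ →* MulAut V, ψ b = 1)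
    (D C : Subgroup Q) [hDn : D.Normal] (hD : InvOf σ D) (hDfix : ∀ d ∈ D, σ b d = d) (hDC : D < C) (hCT : C ≤ T)
    (hC : InvOf σ C) (hC0 : ∀ c ∈ C, (∀ g, g * c * g⁻¹ * c⁻¹ ∈ D) ∧ c ^ p ∈ D)
    (hmin : ∀ K : Subgroup Q, D < K → K ≤ C → InvOf σ K → K = C) : ∀ c ∈ C, σ b c = c := by
  classical
  set β := σ b with hβ
  have hp1 : 1 < p := hp.out.one_lt
  by_cases hrel : D.relIndex C = p
  · intro c hc
    exact fix_of_comm_mem hQ β n hn hcop D hDfix c (section_trivial p σ C D hC hD hrel b hb₂ c hc)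
  -- the second case
  have hCn : C.Normal := by
    constructor
    intro c hc g
    have h1 : g * c * g⁻¹ = (g * c * g⁻¹ * c⁻¹) * c := by group
    rw [h1]
    exact C.mul_mem (hDC.le ((hC0 c hc).1 g)) hc
  set Cz := C ⊓ centralizer (D : Set Q) with hCz
  haveI hCzn : Cz.Normal := by
    rw [hCz]
    infer_instance
  have hCzmem : ∀ c, c ∈ Cz ↔ c ∈ C ∧ ∀ d ∈ D, d * c = c * d := by
    intro c
    rw [hCz, Subgroup.mem_inf, mem_centralizer_iff]
    exact Iff.rfl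
  have hCzinv : InvOf σ Cz := by
    intro g c hc
    obtain ⟨hc1, hc2⟩ := (hCzmem c).1 hc
    refine (hCzmem _).2 ⟨hC g c hc1, fun d hd => ?_⟩
    have h1 := hc2 _ (hD g⁻¹ d hd)
    have h2 : σ g (σ g⁻¹ d) = d := by
      rw [← MulAut.mul_apply, ← map_mul, mul_inv_cancel, map_one, MulAut.one_apply]
    have h3 := congrArg (σ g) h1
    rwa [map_mul, map_mul, h2] at h3
  have hz : ∀ c ∈ C, c⁻¹ * β c ∈ Cz := by
    intro c hc
    refine (hCzmem _).2 ⟨C.mul_mem (C.inv_mem hc) (hC b c hc), fun d hd => ?_⟩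
    have h1 : c * d * c⁻¹ ∈ D := hDn.conj_mem d hd c
    have h2 : β (c * d * c⁻¹) = c * d * c⁻¹ := hDfix _ h1
    rw [map_mul, map_mul, hDfix d hd, map_inv] at h2
    have h3 : β c * d * (β c)⁻¹ = c * d * c⁻¹ := h2
    have h4 : c⁻¹ * β c * d = d * (c⁻¹ * β c) := by
      have h5 : β c * d = c * d * c⁻¹ * β c := by
        rw [← h3]
        group
      calc c⁻¹ * β c * d = c⁻¹ * (β c * d) := by group
        _ = c⁻¹ * (c * d * c⁻¹ * β c) := by rw [h5]
        _ = d * (c⁻¹ * β c) := by group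
    exact h4.symm
  by_cases hCzD : Cz ≤ D
  · intro c hc
    exact fix_of_comm_mem hQ β n hn hcop D hDfix c (hCzD (hz c hc))
  have hCzle : Cz ≤ C := inf_le_left
  have hsup : Cz ⊔ D = C := by
    apply hmin _ _ (sup_le hCzle hDC.le) (hCzinv.sup hD)
    refine lt_of_le_of_ne le_sup_right ?_
    intro h
    exact hCzD (h ▸ le_sup_left)
  -- properties of `Cz`
  have hcent : ∀ c ∈ Cz, ∀ d ∈ D, d * c = c * d := fun c hc d hd => ((hCzmem c).1 hc).2 d hd
  have hcommD : ∀ c ∈ Cz, ∀ g, g * c * g⁻¹ * c⁻¹ ∈ D := fun c hc g => (hC0 c (hCzle hc)).1 g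
  have hcommCz : ∀ c ∈ Cz, ∀ g, g * c * g⁻¹ * c⁻¹ ∈ Cz := fun c hc g =>
    Cz.mul_mem (hCzn.conj_mem c hc g) (Cz.inv_mem hc)
  have hpowD : ∀ c ∈ Cz, c ^ p ∈ D := fun c hc => (hC0 c (hCzle hc)).2
  have hexpc : ∀ g, ∀ y ∈ Cz, y ^ p = 1 → (g * y * g⁻¹ * y⁻¹) ^ p = 1 := by
    intro g y hy hyp
    set c := g * y * g⁻¹ * y⁻¹ with hc
    have h1 : c * y = y * c := (hcent y hy c (hcommD y hy g)).symm ▸ rfl
    have h2 : g * y * g⁻¹ = c * y := by rw [hc]; group
    have h3 : (g * y * g⁻¹) ^ p = 1 := by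
      rw [conj_pow, hyp, mul_one, mul_inv_cancel]
    rw [h2, (Commute.mul_pow h1), hyp, mul_one] at h3
    exact h3
  have hchoose : p ∣ p.choose 2 := by
    have := choose_two_dvd hp.out hp2 (k := 1) le_rfl
    rwa [pow_one] at this
  -- the subgroup of elements of order `p`
  let Y : Subgroup Q :=
    { carrier := {y | y ∈ Cz ∧ y ^ p = 1}
      mul_mem' := by
        rintro y₁ y₂ ⟨h1, h1p⟩ ⟨h2, h2p⟩
        refine ⟨Cz.mul_mem h1 h2, ?_⟩
        set c := y₂ * y₁ * y₂⁻¹ * y₁⁻¹ with hc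
        have hcD : c ∈ D := hcommD y₁ h1 y₂
        have e1 : y₂ * y₁ = c * y₁ * y₂ := by rw [hc]; group
        have e2 : c * y₂ = y₂ * c := hcent y₂ h2 c hcD
        have e3 : c * y₁ = y₁ * c := hcent y₁ h1 c hcD
        have e4 := mul_pow_of_central_commutator y₂ y₁ c e1 e2 e3 p
        obtain ⟨t, ht⟩ := hchoose
        have e5 : c ^ p = 1 := hexpc y₂ y₁ h1 h1p
        rw [e4, h1p, h2p, ht, pow_mul, e5]
        simp
      one_mem' := ⟨Cz.one_mem, one_pow p⟩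
      inv_mem' := by
        rintro y ⟨h1, h1p⟩
        exact ⟨Cz.inv_mem h1, by rw [inv_pow, h1p, inv_one]⟩ }
  have hYmem : ∀ y, y ∈ Y ↔ y ∈ Cz ∧ y ^ p = 1 := fun y => Iff.rfl
  have hYinv : InvOf σ Y := by
    intro g y hy
    obtain ⟨h1, h2⟩ := (hYmem y).1 hy
    exact (hYmem _).2 ⟨hCzinv g y h1, by rw [← map_pow, h2, map_one]⟩
  -- the commutator map
  have hδmem : ∀ y : ↥Y, x * (y : Q) * x⁻¹ * (y : Q)⁻¹ ∈ Y ⊓ D := by
    intro y
    obtain ⟨h1, h2⟩ := (hYmem y).1 y.2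
    exact Subgroup.mem_inf.2 ⟨(hYmem _).2 ⟨hcommCz y h1 x, hexpc x y h1 h2⟩, hcommD y h1 x⟩
  let δ : ↥Y →* ↥(Y ⊓ D) := MonoidHom.mk' (fun y => ⟨x * (y : Q) * x⁻¹ * (y : Q)⁻¹, hδmem y⟩) (by
    intro y y'
    apply Subtype.ext
    show x * ((y : Q) * y') * x⁻¹ * ((y : Q) * y')⁻¹ = (x * y * x⁻¹ * (y : Q)⁻¹) * (x * y' * x⁻¹ * (y' : Q)⁻¹)
    obtain ⟨h1, -⟩ := (hYmem y).1 y.2
    obtain ⟨h2, -⟩ := (hYmem y').1 y'.2
    have hu := hcommD (y' : Q) h2 x
    have hu2 := hcent (y : Q) h1 _ hu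
    set u := x * (y' : Q) * x⁻¹ * (y' : Q)⁻¹ with hudef
    have hu3 : u * (y : Q)⁻¹ = (y : Q)⁻¹ * u := by
      rw [eq_inv_mul_iff_mul_eq, ← mul_assoc, ← hu2, mul_assoc, mul_inv_cancel, mul_one]
    have : (x * y * x⁻¹ * (y : Q)⁻¹) * u = x * y * x⁻¹ * (u * (y : Q)⁻¹) := by
      rw [hu3]
      group
    rw [this, hudef]
    group)
  have hδ : ∀ y : ↥Y, ((δ y : ↥(Y ⊓ D)) : Q) = x * (y : Q) * x⁻¹ * (y : Q)⁻¹ := fun y => rfl
  have hkerle : Nat.card δ.ker ≤ p := by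
    refine le_trans ?_ hZ₀
    have hinj : Function.Injective (fun y : δ.ker => (⟨((y : ↥Y) : Q), by
        have h1 : δ (y : ↥Y) = 1 := y.2
        have h2 : x * ((y : ↥Y) : Q) * x⁻¹ * ((y : ↥Y) : Q)⁻¹ = 1 := by
          have := congrArg Subtype.val h1
          rwa [hδ] at this
        have h3 : x * ((y : ↥Y) : Q) * x⁻¹ = ((y : ↥Y) : Q) := mul_inv_eq_one.1 h2
        have h4 : x * ((y : ↥Y) : Q) = ((y : ↥Y) : Q) * x := mul_inv_eq_iff_eq_mul.1 h3
        obtain ⟨h5, h6⟩ := (hYmem _).1 (y : ↥Y).2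
        exact hΩ _ (hCT (hCzle h5)) h6 h4⟩ : Z₀)) := by
      intro a b hab
      apply Subtype.ext
      apply Subtype.ext
      have h := congrArg (fun z : ↥Z₀ => (z : Q)) hab
      exact h
    exact Nat.card_le_card_of_injective _ hinj
  have hYcard : Nat.card Y ≤ p * Nat.card ↥(Y ⊓ D) := by
    have h1 := Subgroup.card_mul_index δ.ker
    rw [Subgroup.index_ker] at h1
    rw [← h1]
    exact Nat.mul_le_mul hkerle (Subgroup.card_le_card_group _)
  -- `Y ≤ D`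
  have hYD : Y ≤ D := by
    by_contra hYD
    have hYC : Y ≤ C := fun y hy => hCzle ((hYmem y).1 hy).1
    have hsup2 : Y ⊔ D = C := by
      apply hmin _ _ (sup_le hYC hDC.le) (hYinv.sup hD)
      refine lt_of_le_of_ne le_sup_right ?_
      intro h
      exact hYD (h ▸ le_sup_left)
    have h1 : D.relIndex C = D.relIndex Y := by
      rw [← hsup2]
      exact Subgroup.relIndex_sup_right Y D
    have h2 : Nat.card ↥(D ⊓ Y) * D.relIndex Y = Nat.card Y := by
      rw [← Subgroup.inf_relIndex_right]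
      exact card_mul_relIndex inf_le_right
    have h3 : D.relIndex Y ≤ p := by
      have h4 : 0 < Nat.card ↥(D ⊓ Y) := Nat.card_pos
      rw [inf_comm] at h2
      rw [← h2] at hYcard
      rw [mul_comm] at hYcard
      exact Nat.le_of_mul_le_mul_right hYcard (by rwa [inf_comm])
    -- the relative index is a power of `p`
    have h5 : D.relIndex C ∣ Nat.card C := Subgroup.relIndex_dvd_card D C
    obtain ⟨k, hk⟩ := IsPGroup.iff_card.1 (hQ.to_subgroup C)
    rw [hk] at h5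
    obtain ⟨j, hj, hj2⟩ := (Nat.dvd_prime_pow hp.out).1 h5
    rw [h1] at hj2
    rw [hj2] at h3
    have hj1 : j ≤ 1 := by
      by_contra h6
      have h7 : p ^ 2 ≤ p ^ j := Nat.pow_le_pow_right hp.out.pos (by omega)
      have h8 : p < p ^ 2 := by nlinarith
      omega
    rcases Nat.le_one_iff_eq_zero_or_eq_one.1 hj1 with rfl | rfl
    · rw [pow_zero] at hj2
      rw [h1] at *
      have h9 : C ≤ D := by
        rw [Subgroup.relIndex_eq_one] at *
        rw [← hsup2]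
        exact sup_le hj2 le_rfl
      exact absurd h9 (not_le_of_gt hDC)
    · rw [pow_one] at hj2
      rw [h1] at hrel
      exact hrel hj2
  -- the fibre lemma
  have hfib := fiber_of_central_omega (G := Q) p hp2 _ Cz rfl (hQ.to_subgroup Cz) (by
    intro u hu hup g hg
    exact (hcent g hg u (hYD ((hYmem u).2 ⟨hu, hup⟩))).symm)
  have hfixCz : ∀ c ∈ Cz, β c = c := by
    intro c hc
    apply fix_of_comm_mem hQ β n hn hcop D hDfix c
    apply hYD
    refine (hYmem _).2 ⟨hz c (hCzle hc), ?_⟩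
    apply hfib c hc (β c) (hCzinv b c hc)
    rw [← map_pow]
    exact (hDfix _ (hpowD c hc)).symm
  intro c hc
  rw [← hsup, Subgroup.mem_sup_of_normal_right] at hc
  obtain ⟨u, hu, d, hd, rfl⟩ := hc
  rw [map_mul, hfixCz u hu, hDfix d hd]

/-- Elements central modulo `D` with `p`-th power in `D`. -/
def c0Sub (T D : Subgroup Q) [hD : D.Normal] (p : ℕ) : Subgroup Q where
  carrier := {c | c ∈ T ∧ (∀ g, g * c * g⁻¹ * c⁻¹ ∈ D) ∧ c ^ p ∈ D}
  mul_mem' := by
    rintro a b ⟨ha1, ha2, ha3⟩ ⟨hb1, hb2, hb3⟩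
    refine ⟨T.mul_mem ha1 hb1, fun g => ?_, ?_⟩
    · have : g * (a * b) * g⁻¹ * (a * b)⁻¹ = (g * a * g⁻¹ * a⁻¹) * (a * (g * b * g⁻¹ * b⁻¹) * a⁻¹) := by group
      rw [this]
      exact D.mul_mem (ha2 g) (hD.conj_mem _ (hb2 g) a)
    · set π := QuotientGroup.mk' D with hπ
      have h1 : π (b * a * b⁻¹ * a⁻¹) = 1 := (QuotientGroup.eq_one_iff _).2 (ha2 b)
      simp only [map_mul, map_inv] at h1
      have h2 : π b * π a = π a * π b := by
        have h3 : π b * π a * (π b)⁻¹ = π a := mul_inv_eq_one.1 h1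
        exact mul_inv_eq_iff_eq_mul.1 h3
      have hc : Commute (π a) (π b) := h2.symm
      have ha4 : π (a ^ p) = 1 := (QuotientGroup.eq_one_iff _).2 ha3
      have hb4 : π (b ^ p) = 1 := (QuotientGroup.eq_one_iff _).2 hb3
      have h4 : π ((a * b) ^ p) = 1 := by
        rw [map_pow, map_mul, hc.mul_pow, ← map_pow, ← map_pow, ha4, hb4, one_mul]
      exact (QuotientGroup.eq_one_iff _).1 h4
  one_mem' := ⟨T.one_mem, fun g => by simp [D.one_mem], by simp [D.one_mem]⟩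
  inv_mem' := by
    rintro a ⟨ha1, ha2, ha3⟩
    refine ⟨T.inv_mem ha1, fun g => ?_, by rw [inv_pow]; exact D.inv_mem ha3⟩
    have h : g * a⁻¹ * g⁻¹ * a⁻¹⁻¹ = a⁻¹ * (g⁻¹⁻¹ * a * g⁻¹ * a⁻¹)⁻¹ * a ∧ True := by
      refine ⟨by group, trivial⟩
    rw [h.1]
    have h2 := hD.conj_mem _ (D.inv_mem (ha2 g)) a⁻¹
    simpa using h2

theorem mem_c0Sub {T D : Subgroup Q} [hD : D.Normal] {p : ℕ} {c : Q} :
    c ∈ c0Sub T D p ↔ c ∈ T ∧ (∀ g, g * c * g⁻¹ * c⁻¹ ∈ D) ∧ c ^ p ∈ D := Iff.rfl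

/-- **The core lemma**. -/
theorem cl_fix (p : ℕ) [hp : Fact p.Prime] (hp2 : p ≠ 2) (hQ : IsPGroup p Q) (σ : Γ →* MulAut Q) (T : Subgroup Q)
    [hTn : T.Normal] (hTσ : InvOf σ T) (x : Q) (Z₀ : Subgroup Q) (hZ₀ : Nat.card Z₀ ≤ p)
    (hΩ : ∀ y ∈ T, y ^ p = 1 → x * y = y * x → y ∈ Z₀) (b : Γ) (hb₁ : (orderOf b).Coprime p)
    (hb₂ : ∀ (V : Type u) [Group V] [IsCyclic V] [Finite V], Nat.card V = p → ∀ ψ : Γ →* MulAut V, ψ b = 1) :
    ∀ y ∈ T, σ b y = y := by
  classical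
  have hn : (σ b) ^ orderOf b = 1 := by rw [← map_pow, pow_orderOf_eq_one, map_one]
  obtain ⟨D, ⟨hDn, hDinv, hDT, hDfix⟩, hmax⟩ :=
    (Set.toFinite {D : Subgroup Q | D.Normal ∧ InvOf σ D ∧ D ≤ T ∧ ∀ d ∈ D, σ b d = d}).exists_maximal
      ⟨⊥, inferInstance, (by
        intro g t ht
        rw [Subgroup.mem_bot] at ht ⊢
        rw [ht, map_one]), bot_le, (by
        intro d hd
        rw [Subgroup.mem_bot] at hd
        rw [hd, map_one])⟩
  by_cases hDT' : T ≤ D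
  · exact fun y hy => hDfix y (hDT' hy)
  exfalso
  haveI := hDn
  have hlt : D < T := lt_of_le_of_ne hDT (fun h => hDT' h.ge)
  have hnormD : ∀ K : Subgroup Q, K ≤ normalizer (D : Set Q) := fun K => by
    rw [normalizer_eq_top_iff.2 hDn]
    exact le_top
  have hnormT : ∀ K : Subgroup Q, K ≤ normalizer (T : Set Q) := fun K => by
    rw [normalizer_eq_top_iff.2 hTn]
    exact le_top
  obtain ⟨u, huT, huD, hucomm⟩ := exists_fixed_mod_of_pGroup p D T ⊤ hlt (hQ.to_subgroup T) (hQ.to_subgroup ⊤)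
    (hnormD T) (hnormD ⊤) (hnormT ⊤)
  have hucomm' : ∀ g, g * u * g⁻¹ * u⁻¹ ∈ D := fun g => hucomm g (mem_top g)
  -- a power of `u`
  set π := QuotientGroup.mk' D with hπ
  have hupow : ∀ (n : ℕ) (g : Q), g * u ^ n * g⁻¹ * (u ^ n)⁻¹ ∈ D := by
    intro n g
    have h1 : π (g * u * g⁻¹ * u⁻¹) = 1 := (QuotientGroup.eq_one_iff _).2 (hucomm' g)
    simp only [map_mul, map_inv] at h1
    have h2 : π g * π u = π u * π g := by
      have h3 : π g * π u * (π g)⁻¹ = π u := mul_inv_eq_one.1 h1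
      exact mul_inv_eq_iff_eq_mul.1 h3
    have hc : Commute (π g) (π u) := h2
    have h4 : π (g * u ^ n * g⁻¹ * (u ^ n)⁻¹) = 1 := by
      simp only [map_mul, map_inv, map_pow]
      have h5 := hc.pow_right n
      rw [h5.eq, mul_assoc, mul_assoc, mul_inv_cancel_left, mul_inv_cancel]
    exact (QuotientGroup.eq_one_iff _).1 h4
  obtain ⟨m, hm⟩ := hQ u
  have hex : ∃ m : ℕ, u ^ p ^ m ∈ D := ⟨m, by rw [hm]; exact D.one_mem⟩
  classical
  set m₀ := Nat.find hex with hm₀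
  have hm₀D : u ^ p ^ m₀ ∈ D := Nat.find_spec hex
  have hm₀0 : m₀ ≠ 0 := by
    intro h
    rw [h, pow_zero, pow_one] at hm₀D
    exact huD hm₀D
  have hc1 : u ^ p ^ (m₀ - 1) ∉ D := Nat.find_min hex (by omega)
  set c := u ^ p ^ (m₀ - 1) with hc
  have hc2 : c ^ p ∈ D := by
    rw [hc, ← pow_mul, ← pow_succ]
    have : m₀ - 1 + 1 = m₀ := by omega
    rwa [this]
  have hcmem : c ∈ c0Sub T D p := mem_c0Sub.2 ⟨pow_mem huT _, fun g => hupow _ g, hc2⟩
  have hDc0 : D ≤ c0Sub T D p := fun d hd => mem_c0Sub.2 ⟨hDT hd, fun g => D.mul_mem (hDn.conj_mem d hd g) (D.inv_mem hd),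
    pow_mem hd p⟩
  have hc0lt : D < c0Sub T D p := lt_of_le_of_ne hDc0 (fun h => hc1 (h ▸ hcmem))
  have hc0inv : InvOf σ (c0Sub T D p) := by
    intro g t ht
    obtain ⟨h1, h2, h3⟩ := mem_c0Sub.1 ht
    refine mem_c0Sub.2 ⟨hTσ g t h1, fun w => ?_, ?_⟩
    · have e1 : (σ g) ((σ g)⁻¹ w) = w := by
        rw [← MulAut.mul_apply, mul_inv_cancel, MulAut.one_apply]
      have e2 := hDinv g _ (h2 (σ g⁻¹ w))
      simp only [map_mul, map_inv, e1] at e2
      exact e2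
    · rw [← map_pow]
      exact hDinv g _ h3
  obtain ⟨C, ⟨hDC, hCle, hCinv⟩, hCmin⟩ :=
    (Set.toFinite {K : Subgroup Q | D < K ∧ K ≤ c0Sub T D p ∧ InvOf σ K}).exists_minimal
      ⟨c0Sub T D p, hc0lt, le_rfl, hc0inv⟩
  have hCT : C ≤ T := fun c hc => (mem_c0Sub.1 (hCle hc)).1
  have hfix := cl_step p hp2 hQ σ x T Z₀ hZ₀ hΩ b (orderOf b) hn hb₁ hb₂ D C hDinv hDfix hDC hCT hCinv
    (fun c hc => (mem_c0Sub.1 (hCle hc)).2) (fun K h1 h2 h3 =>
      le_antisymm h2 (hCmin ⟨h1, h2.trans hCle, h3⟩ h2))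
  have hCn : C.Normal := by
    constructor
    intro c hc g
    have h1 : g * c * g⁻¹ = (g * c * g⁻¹ * c⁻¹) * c := by group
    rw [h1]
    exact C.mul_mem (hDC.le ((mem_c0Sub.1 (hCle hc)).2.1 g)) hc
  have := hmax ⟨hCn, hCinv, hCT, hfix⟩ hDC.le
  exact absurd this (not_le_of_gt hDC)

/-- The narrow action theorem. -/
theorem rank3_fix (p : ℕ) [hp : Fact p.Prime] (hp2 : p ≠ 2) (hQ : IsPGroup p Q) (hr : ¬ PRankLE p 2 Q) (E : Subgroup Q)
    (hE : IsElementaryAbelian p E) (hE2 : Nat.card E = p ^ 2)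
    (hEmax : ∀ B : Subgroup Q, IsElementaryAbelian p B → E ≤ B → B = E) (σ : Γ →* MulAut Q) (b : Γ)
    (hb₁ : (orderOf b).Coprime p)
    (hb₂ : ∀ (V : Type u) [Group V] [IsCyclic V] [Finite V], Nat.card V = p → ∀ ψ : Γ →* MulAut V, ψ b = 1) :
    ∀ y, σ b y = y := by
  classical
  obtain ⟨h1, h2, ⟨h3, h4⟩, h5, h6⟩ := s1453_core p hp2 hQ hr E hE hE2 hEmax
  set W := omegaOf (Subgroup.upperCentralSeries Q 2) p (omega_Z2_closed p hp2) with hW
  set Z₀ := omegaOf (center Q) p (omega_center_closed p) with hZ₀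
  set T := centralizer (W : Set Q) with hT
  haveI hTn : T.Normal := Subgroup.normal_of_characteristic T
  have hTinv : InvOf σ T := fun g t ht => (characteristic_iff_le_comap.1 h5 (σ g)) ht
  obtain ⟨x, hxE, hxT⟩ := SetLike.not_le_iff_exists.1 h1
  have hp1 : 1 < p := hp.out.one_lt
  -- elements of order `p` commuting with `E` are in `E`
  have hmaxmem : ∀ y : Q, y ^ p = 1 → (∀ e ∈ E, e * y = y * e) → y ∈ E := by
    intro y hy hc
    have h7 := hEmax (E ⊔ zpowers y) (isElementaryAbelian_sup_zpowers hE hy (fun e he => (hc e he).symm)) le_sup_left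
    exact h7 ▸ (Subgroup.mem_sup_right (mem_zpowers y))
  have hZ₀cent : ∀ z ∈ Z₀, ∀ g, g * z = z * g := fun z hz g =>
    Subgroup.mem_center_iff.1 (mem_omegaOf.1 hz).1 g
  have hZ₀E : Z₀ ≤ E := fun z hz => hmaxmem z (mem_omegaOf.1 hz).2 (fun e _ => hZ₀cent z hz e)
  have hZ₀T : Z₀ ≤ T := by
    intro z hz
    rw [hT, mem_centralizer_iff]
    intro w _
    exact hZ₀cent z hz w
  have hxZ₀ : x ∉ Z₀ := fun h => hxT (hZ₀T h)
  have hZ₀card : Nat.card Z₀ = p := h2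
  have hΩ : ∀ y ∈ T, y ^ p = 1 → x * y = y * x → y ∈ Z₀ := by
    intro y hyT hyp hxy
    -- `y` commutes with `E`
    set K := E ⊓ centralizer ({y} : Set Q) with hK
    have hZK : Z₀ ≤ K := fun z hz => Subgroup.mem_inf.2 ⟨hZ₀E hz, by
      rw [mem_centralizer_singleton_iff]
      exact (hZ₀cent z hz y).symm⟩
    have hxK : x ∈ K := Subgroup.mem_inf.2 ⟨hxE, by
      rw [mem_centralizer_singleton_iff]
      exact hxy⟩
    have hlt : Z₀ < K := lt_of_le_of_ne hZK (fun h => hxZ₀ (h ▸ hxK))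
    have hcardlt : p < Nat.card K := by
      rw [← hZ₀card]
      exact card_lt_of_lt hlt
    have hKE : K = E := eq_of_le_of_lt_card p inf_le_left hE2 hcardlt
    have hyE : y ∈ E := hmaxmem y hyp (fun e he => by
      have h7 : e ∈ K := hKE ▸ he
      have h8 := (Subgroup.mem_inf.1 h7).2
      rw [mem_centralizer_singleton_iff] at h8
      exact h8)
    -- `E ∩ T = Z₀`
    by_contra hyZ
    have hZL : Z₀ ≤ E ⊓ T := le_inf hZ₀E hZ₀T
    have hlt2 : Z₀ < E ⊓ T := lt_of_le_of_ne hZL (fun h => hyZ (h ▸ Subgroup.mem_inf.2 ⟨hyE, hyT⟩))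
    have hcardlt2 : p < Nat.card ↥(E ⊓ T) := by
      rw [← hZ₀card]
      exact card_lt_of_lt hlt2
    have hET : E ⊓ T = E := eq_of_le_of_lt_card p inf_le_left hE2 hcardlt2
    have hx' : x ∈ E ⊓ T := by
      rw [hET]
      exact hxE
    exact hxT (Subgroup.mem_inf.1 hx').2
  have hfixT := cl_fix p hp2 hQ σ T hTinv x Z₀ hZ₀card.le hΩ b hb₁ hb₂
  have hrel : T.relIndex ⊤ = p := by
    rw [Subgroup.relIndex_top_right]
    exact h6
  have hsec := section_trivial p σ ⊤ T (fun _ _ _ => mem_top _) hTinv hrel b hb₂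
  intro y
  have hn : (σ b) ^ orderOf b = 1 := by rw [← map_pow, pow_orderOf_eq_one, map_one]
  exact fix_of_comm_mem hQ (σ b) (orderOf b) hn hb₁ T hfixT y (hsec y (mem_top y))

end CL

/-- Commutators act trivially on cyclic groups. -/
theorem hb2_of_commutator {Γ : Type v} [Group Γ] (b : Γ) (hb : b ∈ commutator Γ) (V : Type u) [Group V] [IsCyclic V] [Finite V]
    (ψ : Γ →* MulAut V) : ψ b = 1 := by
  have hle : commutator Γ ≤ ψ.ker := by
    rw [commutator_eq_closure, closure_le]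
    rintro _ ⟨a, c, rfl⟩
    show ψ ⁅a, c⁆ = 1
    rw [map_commutatorElement, commutatorElement_eq_one_iff_mul_comm]
    exact mulAut_comm_of_cyclic _ _
  exact hle hb

/-- `(p - 1)`-st powers act trivially on groups of order `p`. -/
theorem hb2_of_pow {Γ : Type v} [Group Γ] (p : ℕ) [hp : Fact p.Prime] (a : Γ) (V : Type u) [Group V] [IsCyclic V] [Finite V]
    (hV : Nat.card V = p) (ψ : Γ →* MulAut V) : ψ (a ^ (p - 1)) = 1 := by
  have h1 : Nat.card (MulAut V) = p - 1 := by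
    rw [IsCyclic.card_mulAut, hV, Nat.totient_prime hp.out]
  rw [map_pow, ← h1]
  exact pow_card_eq_one'

end Cfsg.Agent.Lib.OddLocal
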