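import Cfsg.Agent.Lib.OddLocal.Rank3F
import Cfsg.Agent.Lib.OddLocal.UniqueP
import Cfsg.Agent.Lib.Coprime.Conj

/-!
Narrow `p`-groups: maximal elementary abelian subgroups of order `p ^ 2`, and the action of
solvable groups of odd order.
-/

set_option autoImplicit false
set_option linter.unusedSectionVars false
set_option linter.style.haveILetI false

namespace Cfsg.Agent.Lib.OddLocal

open Subgroup Cfsg Cfsg.Agent.Lib.Basic Cfsg.Agent.Lib.Coprime

open scoped commutatorElement

universe u v

section Cyclic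

variable {V : Type*} [Group V] [Finite V]

theorem mem_zpowers_of_cyclic [IsCyclic V] {p : ℕ} [hp : Fact p.Prime] {y r : V} (hy : y ^ p = 1) (hy1 : y ≠ 1)
    (hr : r ^ p = 1) : r ∈ zpowers y := by
  have hu : UniqueP p V := fun H K hH hK => eq_of_card_eq_of_isCyclic (hH.trans hK.symm)
  exact hu.mem_zpowers hy hy1 hr

end Cyclic

section Narrow

variable {Q : Type u} [Group Q] [Finite Q]

/-- A narrow `p`-group of rank at least three has a maximal elementary abelian subgroup of order `p ^ 2`. -/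
theorem narrow_max (p : ℕ) [hp : Fact p.Prime] (hQ : IsPGroup p Q) (hr : ¬ PRankLE p 2 Q) (hn : IsNarrow p Q) :
    ∃ E : Subgroup Q, IsElementaryAbelian p E ∧ Nat.card E = p ^ 2 ∧
      ∀ B : Subgroup Q, IsElementaryAbelian p B → E ≤ B → B = E := by
  classical
  rcases hn with h | ⟨R₀, R₁, h0, h1, h2, h3, h4⟩
  · exact absurd h hr
  have hp1 : 1 < p := hp.out.one_lt
  have hQnt : Nontrivial Q := by
    by_contra hnt
    rw [not_nontrivial_iff_subsingleton] at hnt
    apply hr
    intro A _ _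
    have : Nat.card A = 1 := by
      have : Subsingleton A := inferInstance
      exact Nat.card_of_subsingleton (1 : A)
    rw [this]
    exact Nat.one_le_pow _ _ hp.out.pos
  haveI := hQnt
  have hR₀e : IsElementaryAbelian p R₀ := by
    haveI : Fact (Nat.card R₀).Prime := ⟨h0 ▸ hp.out⟩
    haveI : IsCyclic R₀ := isCyclic_of_prime_card rfl
    refine ⟨inferInstance, ?_⟩
    intro a ha
    have := Subgroup.orderOf_dvd_natCard R₀ ha
    rw [h0] at this
    exact orderOf_dvd_iff_pow_eq_one.1 this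
  have hR₁ : R₁ ≠ ⊥ := by
    intro hb
    rw [hb, sup_bot_eq] at h4
    have hZ := hQ.center_nontrivial
    obtain ⟨z, hz⟩ := exists_ne (1 : center Q)
    have hz1 : (z : Q) ≠ 1 := fun h => hz (Subtype.ext h)
    have hzR : (z : Q) ∈ R₀ := by
      rw [show (z : Q) ∈ R₀ ↔ (z : Q) ∈ centralizer (R₀ : Set Q) from by rw [← h4], mem_centralizer_iff]
      intro a _
      exact (Subgroup.mem_center_iff.1 z.2 a)
    have hzc : Nat.card (zpowers (z : Q)) = p := by
      rw [Nat.card_zpowers]
      apply orderOf_eq_prime _ hz1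
      exact hR₀e.2 _ hzR
    have heq : zpowers (z : Q) = R₀ := by
      apply Subgroup.eq_of_le_of_card_ge
      · rwa [zpowers_le]
      · rw [hzc, h0]
    have hall : ∀ g : Q, g ∈ R₀ := by
      intro g
      rw [show g ∈ R₀ ↔ g ∈ centralizer (R₀ : Set Q) from by rw [← h4], mem_centralizer_iff]
      intro a ha
      rw [← heq] at ha
      obtain ⟨k, rfl⟩ := ha
      have : Commute g (z : Q) := (Subgroup.mem_center_iff.1 z.2 g)
      exact (this.zpow_right k).symm
    have htop : R₀ = ⊤ := (Subgroup.eq_top_iff' _).2 hall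
    apply hr
    intro A _ _
    have : Nat.card A ≤ Nat.card R₀ := by
      rw [htop, Subgroup.card_top]
      exact Subgroup.card_le_card_group A
    rw [h0] at this
    have h5 : p ≤ p ^ 2 := by nlinarith
    omega
  obtain ⟨y, hyR, hy1, hyp⟩ := exists_order_p_of_ne_bot p (hQ.to_subgroup R₁) hR₁
  have hyc : ∀ e ∈ R₀, y * e = e * y := fun e he => (h3 e he y hyR).symm
  have hyR₀ : y ∉ R₀ := by
    intro h
    have : y ∈ R₀ ⊓ R₁ := Subgroup.mem_inf.2 ⟨h, hyR⟩
    rw [h2, Subgroup.mem_bot] at this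
    exact hy1 this
  refine ⟨R₀ ⊔ zpowers y, isElementaryAbelian_sup_zpowers hR₀e hyp hyc, ?_, ?_⟩
  · -- the order
    have hle : zpowers y ≤ normalizer (R₀ : Set Q) := by
      rw [zpowers_le]
      apply mem_normalizer_of_conj_le
      intro n hn
      have : y * n * y⁻¹ = n := by rw [hyc n hn]; group
      rw [this]
      exact hn
    have hinf : R₀ ⊓ zpowers y = ⊥ := by
      rw [eq_bot_iff]
      intro u hu
      have h5 : u ∈ R₀ ⊓ R₁ := Subgroup.mem_inf.2 ⟨(Subgroup.mem_inf.1 hu).1,
        (zpowers_le.2 hyR) (Subgroup.mem_inf.1 hu).2⟩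
      rwa [h2] at h5
    have hyo : Nat.card (zpowers y) = p := by
      rw [Nat.card_zpowers]
      exact orderOf_eq_prime hyp hy1
    have h5 : Nat.card ↥(R₀ ⊔ zpowers y) = Nat.card R₀ * Nat.card (zpowers y) :=
      card_sup_of_disjoint hle hinf
    rw [h5, h0, hyo, pow_two]
  · -- maximality
    intro B hB hle
    apply le_antisymm _ hle
    intro b hb
    have hR₀B : R₀ ≤ B := le_sup_left.trans hle
    have hbC : b ∈ centralizer (R₀ : Set Q) := by
      rw [mem_centralizer_iff]
      intro a ha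
      have := hB.1.is_comm.comm ⟨a, hR₀B ha⟩ ⟨b, hb⟩
      exact congrArg Subtype.val this
    rw [← h4] at hbC
    have hR₁N : R₁ ≤ normalizer (R₀ : Set Q) := by
      intro r hr
      apply mem_normalizer_of_conj_le
      intro n hn
      have : r * n * r⁻¹ = n := by
        rw [← h3 n hn r hr]
        group
      rw [this]
      exact hn
    rw [mem_sup_iff_of_le_normalizer hR₁N] at hbC
    obtain ⟨k, hk, r, hr, rfl⟩ := hbC
    have hrp : r ^ p = 1 := by
      have h5 := hB.2 _ hb
      have h6 : Commute k r := h3 k hk r hr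
      rw [h6.mul_pow, hR₀e.2 k hk, one_mul] at h5
      exact h5
    haveI : IsCyclic R₁ := h1
    have h7 : (⟨r, hr⟩ : R₁) ∈ zpowers (⟨y, hyR⟩ : R₁) := by
      apply mem_zpowers_of_cyclic (p := p)
      · exact Subtype.ext hyp
      · intro h
        exact hy1 (congrArg Subtype.val h)
      · exact Subtype.ext hrp
    obtain ⟨j, hj⟩ := h7
    have h8 : r = y ^ j := by
      have := congrArg Subtype.val hj
      simpa using this.symm
    exact Subgroup.mul_mem _ (Subgroup.mem_sup_left hk) (Subgroup.mem_sup_right ⟨j, h8.symm⟩)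

/-- The index of `O_p` is prime to `p` if the quotient is abelian. -/
theorem index_pCore_coprime_of_commutator_le {X : Type*} [Group X] [Finite X] (p : ℕ) [hp : Fact p.Prime]
    (h : commutator X ≤ pCore p X) : ((pCore p X).index).Coprime p := by
  classical
  set R := pCore p X with hR
  have hRp : IsPGroup p R := pCore_isPGroup p
  rw [Nat.coprime_comm, Nat.Prime.coprime_iff_not_dvd hp.out]
  intro hd
  rw [Subgroup.index_eq_card] at hd
  obtain ⟨y, hy⟩ := exists_prime_orderOf_dvd_card' p hd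
  have hab : ∀ a b : X ⧸ R, a * b = b * a := by
    intro a b
    obtain ⟨u, rfl⟩ := QuotientGroup.mk'_surjective R a
    obtain ⟨v, rfl⟩ := QuotientGroup.mk'_surjective R b
    rw [← map_mul, ← map_mul, QuotientGroup.mk'_apply, QuotientGroup.mk'_apply, QuotientGroup.eq]
    have : (u * v)⁻¹ * (v * u) = ⁅v⁻¹, u⁻¹⁆ := by
      rw [commutatorElement_def]
      group
    rw [this]
    apply h
    rw [_root_.commutator_def]
    exact Subgroup.commutator_mem_commutator (mem_top _) (mem_top _)
  set L := (zpowers y).comap (QuotientGroup.mk' R) with hL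
  haveI hzn : (zpowers y).Normal := by
    constructor
    intro n hn g
    rw [hab g n, mul_assoc, mul_inv_cancel, mul_one]
    exact hn
  have hLp : IsPGroup p L := by
    rw [IsPGroup.iff_card]
    have h2 : Nat.card L = Nat.card R * Nat.card (zpowers y) := card_comap_mk R (zpowers y)
    obtain ⟨n, hn⟩ := IsPGroup.iff_card.1 hRp
    refine ⟨n + 1, ?_⟩
    rw [h2, hn, Nat.card_zpowers, hy, pow_succ]
  have hLR : L ≤ R := le_pCore inferInstance hLp
  obtain ⟨u, rfl⟩ := QuotientGroup.mk'_surjective R y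
  have huR : u ∈ R := hLR (by
    show QuotientGroup.mk' R u ∈ zpowers _
    exact mem_zpowers _)
  have h5 : QuotientGroup.mk' R u = 1 := (QuotientGroup.eq_one_iff u).2 huR
  rw [h5, orderOf_one] at hy
  exact hp.out.one_lt.ne hy

end Narrow

section GLevel

variable {G : Type u} [Group G] [Finite G]

/-- Part (a) of **S1454**. -/
theorem s1454_a (p : ℕ) [hp : Fact p.Prime] (hp2 : p ≠ 2) (R A : Subgroup G) (hR : IsPGroup p R) (hRn : IsNarrow p R)
    (hA : A ≤ normalizer (R : Set G)) (hAs : Group.IsSolvable A) (hAodd : Odd (Nat.card A))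
    (hfaith : A ⊓ centralizer (R : Set G) = ⊥) :
    commutator ↥A ≤ pCore p ↥A ∧ ((pCore p ↥A).index).Coprime p := by
  classical
  have hkill : ∀ t : ↥A, (∀ x : ↥R, (t : G) * x * (t : G)⁻¹ = x) → t = 1 := by
    intro t ht
    have h1 : (t : G) ∈ A ⊓ centralizer (R : Set G) := by
      refine Subgroup.mem_inf.2 ⟨t.2, ?_⟩
      rw [mem_centralizer_iff]
      intro x hx
      exact (mul_inv_eq_iff_eq_mul.1 (ht ⟨x, hx⟩)).symm
    rw [hfaith, Subgroup.mem_bot] at h1
    exact Subtype.ext h1
  have key : IsPGroup p ↥(commutator ↥A) := by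
    by_cases hr : PRankLE p 2 R
    · have h1 := s1449_core p hp2 R A hR hr hA hAs hAodd hfaith
      intro c
      have h2 : ((c : ↥A) : G) ∈ ⁅A, A⁆ := by
        rw [← Subgroup.map_subtype_commutator]
        exact ⟨c, c.2, rfl⟩
      obtain ⟨n, hn⟩ := h1 ⟨_, h2⟩
      refine ⟨n, Subtype.ext (Subtype.ext ?_)⟩
      simpa using congrArg Subtype.val hn
    · obtain ⟨E, hE, hE2, hEmax⟩ := narrow_max p hR hr hRn
      intro c
      have h0 : orderOf (c : ↥A) ≠ 0 := (orderOf_pos _).ne'
      obtain ⟨e, m, hm, hem⟩ := Nat.exists_eq_pow_mul_and_not_dvd h0 p hp.out.ne_one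
      refine ⟨e, Subtype.ext ?_⟩
      have h1 : ((c : ↥A)) ^ p ^ e ∈ commutator ↥A := pow_mem c.2 _
      have hord : (orderOf ((c : ↥A) ^ p ^ e)).Coprime p := by
        rw [orderOf_pow_of_dvd (pow_ne_zero e hp.out.ne_zero) ⟨m, hem⟩]
        have : orderOf (c : ↥A) / p ^ e = m := by
          rw [hem]
          exact Nat.mul_div_cancel_left m (pow_pos hp.out.pos e)
        rw [this]
        exact ((Nat.Prime.coprime_iff_not_dvd hp.out).2 hm).symm
      have h2 := rank3_fix p hp2 hR hr E hE hE2 hEmax (conjHomOf R A hA) _ hord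
        (fun V _ _ _ _ ψ => hb2_of_commutator _ h1 V ψ)
      have h3 := hkill _ (fun x => congrArg Subtype.val (h2 x))
      simpa using h3
  have h1 : commutator ↥A ≤ pCore p ↥A := le_pCore inferInstance key
  exact ⟨h1, index_pCore_coprime_of_commutator_le p h1⟩

/-- Part (b) of **S1454**. -/
theorem s1454_b (p : ℕ) [hp : Fact p.Prime] (hp2 : p ≠ 2) (R A : Subgroup G) (hR : IsPGroup p R) (hRn : IsNarrow p R)
    (hA : A ≤ normalizer (R : Set G)) (hfaith : A ⊓ centralizer (R : Set G) = ⊥) (hr : ¬ PRankLE p 2 R) (a : G) (haA : a ∈ A)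
    (hcop : (orderOf a).Coprime p) : orderOf a ∣ p - 1 := by
  classical
  obtain ⟨E, hE, hE2, hEmax⟩ := narrow_max p hR hr hRn
  set t : ↥A := ⟨a, haA⟩ with ht
  have hord : (orderOf (t ^ (p - 1))).Coprime p := by
    apply Nat.Coprime.coprime_dvd_left (orderOf_pow_dvd _)
    rwa [ht, Subgroup.orderOf_mk]
  have h2 := rank3_fix p hp2 hR hr E hE hE2 hEmax (conjHomOf R A hA) _ hord
    (fun V _ _ _ hV ψ => hb2_of_pow p t V hV ψ)
  have h1 : ((t ^ (p - 1) : ↥A) : G) ∈ A ⊓ centralizer (R : Set G) := by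
    refine Subgroup.mem_inf.2 ⟨(t ^ (p - 1)).2, ?_⟩
    rw [mem_centralizer_iff]
    intro x hx
    have h3 := congrArg Subtype.val (h2 ⟨x, hx⟩)
    exact (mul_inv_eq_iff_eq_mul.1 h3).symm
  rw [hfaith, Subgroup.mem_bot] at h1
  apply orderOf_dvd_of_pow_eq_one
  simpa [ht] using h1

end GLevel

end Cfsg.Agent.Lib.OddLocal
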