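import Cfsg.Agent.Lib.OddLocal.Rank3G
import Cfsg.Agent.Lib.OddLocal.PLength

/-!
Solvable groups of odd order with narrow Sylow subgroups, and elementary abelian subgroups of the Fitting
subgroup with small centralizers.
-/

set_option autoImplicit false
set_option linter.unusedSectionVars false
set_option linter.style.haveILetI false

namespace Cfsg.Agent.Lib.OddLocal

open Subgroup Cfsg Cfsg.Agent.Lib.Basic Cfsg.Agent.Lib.Coprime

open scoped commutatorElement

universe u v

variable {G : Type u} [Group G] [Finite G]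

theorem prank_of_le {p k : ℕ} {X : Type*} [Group X] {K L : Subgroup X} (hKL : K ≤ L) (h : PRankLE p k ↥L) :
    PRankLE p k ↥K := by
  intro E hEc hEe
  have h1 := h (E.map (inclusion hKL)) ⟨⟨by
    rintro ⟨_, a, ha, rfl⟩ ⟨_, b, hb, rfl⟩
    apply Subtype.ext
    have := hEc.is_comm.comm ⟨a, ha⟩ ⟨b, hb⟩
    exact congrArg (fun x : E => inclusion hKL (x : ↥K)) this⟩⟩ (by
    rintro _ ⟨a, ha, rfl⟩
    rw [← map_pow, hEe a ha, map_one])
  rwa [Nat.card_congr (E.equivMapOfInjective _ (inclusion_injective hKL)).symm.toEquiv] at h1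

/-- Cyclic groups have small rank. -/
theorem prank_of_isCyclic {p : ℕ} [hp : Fact p.Prime] {Q : Type*} [Group Q] [Finite Q] [IsCyclic Q] : PRankLE p 2 Q := by
  intro A _ hA
  have hpp : p ≤ p ^ 2 := by
    have := hp.out.one_lt
    nlinarith
  rcases Subgroup.bot_or_exists_ne_one A with hb | ⟨y, hyA, hy1⟩
  · subst hb
    simp only [Subgroup.card_bot]
    exact Nat.one_le_pow _ _ hp.out.pos
  have hle : A ≤ zpowers y := fun r hr => mem_zpowers_of_cyclic (p := p) (hA y hyA) hy1 (hA r hr)
  have h2 := Subgroup.card_le_of_le hle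
  rw [Nat.card_zpowers, orderOf_eq_prime (hA y hyA) hy1] at h2
  omega

/-- **S1456**. -/
theorem s1456_core [Group.IsSolvable G] (hodd : Odd (Nat.card G)) (p : ℕ) [hp : Fact p.Prime] (E : Subgroup G)
    (hE : E ≤ fittingSubgroup G) (hEe : IsElementaryAbelian p E)
    (hr : RankLE 2 ↥(fittingSubgroup G ⊓ centralizer (E : Set G))) : commutator G ≤ fittingSubgroup G := by
  classical
  have hEP : E ≤ pCore p G := fun e he => mem_pCore_of_fitting p (hE he) 1 (by rw [pow_one]; exact hEe.2 e he)
  have hH : ∀ r : ℕ, r.Prime → ∀ c ∈ commutator G, (orderOf c).Coprime r → c ∈ centralizer (pCore r G : Set G) := by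
    intro r hr' c hc hcop
    haveI hrf : Fact r.Prime := ⟨hr'⟩
    rcases eq_or_ne r p with rfl | hrp
    · by_cases hrk : PRankLE r 2 (pCore r G)
      · exact centralize_of_rank hodd r hr' hrk c hc hcop
      have hp2 : r ≠ 2 := by
        rintro rfl
        apply hrk
        have h : pCore 2 G = ⊥ := pCore_eq_bot_of_not_dvd (fun h => by
          obtain ⟨k, hk⟩ := hodd
          rw [hk] at h
          omega)
        intro A _ _
        have h1 : Subsingleton ↥(pCore 2 G) := by
          rw [h]
          infer_instance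
        have h2 : Nat.card A = 1 := Nat.card_of_subsingleton (1 : A)
        rw [h2]
        norm_num
      set P := pCore r G with hP
      have hPp : IsPGroup r P := pCore_isPGroup r
      have hnc : ¬ IsCyclic ↥P := fun h => hrk (prank_of_isCyclic)
      obtain ⟨E₂, hE₂n, hE₂e, hE₂c⟩ := Transfer.exists_normal_elementary_sq hp2 hPp hnc
      haveI := hE₂n
      haveI : Group.IsNilpotent ↥P := hPp.isNilpotent
      have hE₂b : E₂ ≠ ⊥ := by
        rintro rfl
        rw [Subgroup.card_bot] at hE₂c
        have : 1 < r ^ 2 := Nat.one_lt_pow (by norm_num) hr'.one_lt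
        omega
      obtain ⟨z, hzm, hz1, hzp⟩ := exists_order_p_of_ne_bot r (hPp.to_subgroup _) (normal_inf_center_ne_bot E₂ hE₂b)
      have hzE₂ : z ∈ E₂ := hzm.1
      have hzZ : z ∈ center ↥P := hzm.2
      set E' := E.subgroupOf P with hE'
      have hE'e : IsElementaryAbelian r E' := by
        refine ⟨⟨⟨fun a b => ?_⟩⟩, fun a ha => Subtype.ext (hEe.2 _ (Subgroup.mem_subgroupOf.1 ha))⟩
        apply Subtype.ext
        apply Subtype.ext
        have := hEe.1.is_comm.comm ⟨_, Subgroup.mem_subgroupOf.1 a.2⟩ ⟨_, Subgroup.mem_subgroupOf.1 b.2⟩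
        exact congrArg (fun x : ↥E => (x : G)) this
      obtain ⟨B, ⟨hB, hE'B⟩, hmax⟩ :=
        (Set.toFinite {B : Subgroup ↥P | IsElementaryAbelian r B ∧ E' ≤ B}).exists_maximal ⟨E', hE'e, le_rfl⟩
      have hBmax : ∀ B' : Subgroup ↥P, IsElementaryAbelian r B' → B ≤ B' → B' = B := fun B' h1 h2 =>
        le_antisymm (hmax ⟨h1, hE'B.trans h2⟩ h2) h2
      have hzB : z ∈ B := by
        have h1 := hBmax (B ⊔ zpowers z) (isElementaryAbelian_sup_zpowers hB hzp (fun e _ =>
          (Subgroup.mem_center_iff.1 hzZ e).symm)) le_sup_left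
        rw [← h1]
        exact Subgroup.mem_sup_right (mem_zpowers z)
      have hp1 := hr'.one_lt
      -- the order of `B`
      have hBle : Nat.card B ≤ r ^ 2 := by
        have hle : B.map P.subtype ≤ fittingSubgroup G ⊓ centralizer (E : Set G) := by
          rintro _ ⟨b, hb, rfl⟩
          refine Subgroup.mem_inf.2 ⟨pCore_le_fittingSubgroup r b.2, ?_⟩
          rw [mem_centralizer_iff]
          intro e he
          have he' : (⟨e, hEP he⟩ : ↥P) ∈ B := hE'B (Subgroup.mem_subgroupOf.2 he)
          have := hB.1.is_comm.comm ⟨_, he'⟩ ⟨b, hb⟩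
          exact congrArg (fun x : B => ((x : ↥P) : G)) this
        have h2 := prank_of_elem hle (hr r hr') (by
          rintro _ ⟨a, ha, rfl⟩ _ ⟨b, hb, rfl⟩
          have := hB.1.is_comm.comm ⟨a, ha⟩ ⟨b, hb⟩
          exact congrArg (fun x : B => ((x : ↥P) : G)) this) (by
          rintro _ ⟨a, ha, rfl⟩
          exact congrArg Subtype.val (hB.2 a ha))
        rwa [Nat.card_congr (B.equivMapOfInjective _ P.subtype_injective).symm.toEquiv] at h2
      have hBge : r ^ 2 ≤ Nat.card B := by
        by_contra hlt
        push Not at hlt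
        have hzc : Nat.card (zpowers z) = r := by
          rw [Nat.card_zpowers]
          exact orderOf_eq_prime hzp hz1
        obtain ⟨k, hk⟩ := IsPGroup.iff_card.1 (hPp.to_subgroup B)
        have hk1 : k < 2 := by
          rw [hk] at hlt
          exact (Nat.pow_lt_pow_iff_right hp1).1 hlt
        have hBeq : zpowers z = B := by
          apply Subgroup.eq_of_le_of_card_ge
          · rwa [zpowers_le]
          · rw [hzc, hk]
            calc r ^ k ≤ r ^ 1 := Nat.pow_le_pow_right hp1.le (by omega)
              _ = r := pow_one r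
        have h3 : B ≤ E₂ := by
          rw [← hBeq, zpowers_le]
          exact hzE₂
        have h4 := hBmax E₂ hE₂e h3
        rw [h4] at hE₂c
        omega
      have hfix := rank3_fix r hp2 hPp hrk B hB (le_antisymm hBle hBge) hBmax (MulAut.conjNormal : G →* MulAut ↥P) c hcop
        (fun V _ _ _ _ ψ => hb2_of_commutator c hc V ψ)
      rw [mem_centralizer_iff]
      intro x hx
      have h1 := congrArg Subtype.val (hfix ⟨x, hx⟩)
      rw [MulAut.conjNormal_apply] at h1
      exact (mul_inv_eq_iff_eq_mul.1 h1).symm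
    · apply centralize_of_rank hodd r hr' _ c hc hcop
      have hle : pCore r G ≤ fittingSubgroup G ⊓ centralizer (E : Set G) := by
        intro u hu
        refine Subgroup.mem_inf.2 ⟨pCore_le_fittingSubgroup r hu, ?_⟩
        rw [mem_centralizer_iff]
        intro e he
        have hcop : (Nat.card (pCore p G)).Coprime (Nat.card (pCore r G)) := by
          obtain ⟨k, hk⟩ := (pCore_isPGroup (G := G) p).exists_card_eq
          obtain ⟨l, hl⟩ := (pCore_isPGroup (G := G) r).exists_card_eq
          rw [hk, hl]
          exact Nat.Coprime.pow _ _ ((Nat.coprime_primes hp.out hr').2 (Ne.symm hrp))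
        exact comm_of_normal_coprime hcop (hEP he) hu
      exact prank_of_le hle (hr r hr')
  have hnil := isNilpotent_derived_of_centralize hH
  exact le_fittingSubgroup_of_nilpotent inferInstance hnil

end Cfsg.Agent.Lib.OddLocal
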