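import Cfsg.Agent.Lib.OddLocal.Rank3I
import Cfsg.Agent.Lib.OddLocal.Rank2B

/-!
The section `Ω₁(Z₂(Q))` in a `p`-group of rank two, and the action of a group of prime order.
-/

set_option autoImplicit false
set_option linter.unusedSectionVars false
set_option linter.style.haveILetI false

namespace Cfsg.Agent.Lib.OddLocal

open Subgroup Cfsg Cfsg.Agent.Lib.Basic Cfsg.Agent.Lib.Coprime

open scoped commutatorElement

universe u v

section Q

variable {Q : Type u} [Group Q] [Finite Q]

theorem omegaZ2_card_cases (p : ℕ) [hp : Fact p.Prime] (hp2 : p ≠ 2) (hQ : IsPGroup p Q) (hr : PRankLE p 2 Q)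
    (hnc : ¬ IsCyclic Q) :
    (Nat.card (omegaZ2 Q p hp2) = p ^ 2 ∧ commutator ↥(omegaZ2 Q p hp2) = ⊥) ∨ Nat.card (omegaZ2 Q p hp2) = p ^ 3 := by
  set W := omegaZ2 Q p hp2 with hW
  have hp1 := hp.out.one_lt
  have hppos := hp.out.pos
  have h1 := card_omegaZ2_quot p hp2 hQ hr hnc
  have h2 := card_omegaZ2_le p hp2 hQ hr
  have hcardeq : Nat.card (↥W ⧸ commutator ↥W) * Nat.card (commutator ↥W) = Nat.card W := by
    rw [← Subgroup.index_eq_card, mul_comm]
    exact Subgroup.card_mul_index _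
  rw [← hW] at h1 h2
  rw [h1] at hcardeq
  obtain ⟨j, hj⟩ := IsPGroup.iff_card.1 ((hQ.to_subgroup W).to_subgroup (commutator ↥W))
  rw [hj] at hcardeq
  have h3 : p ^ (2 + j) ≤ p ^ 3 := by
    rw [pow_add, hcardeq]
    exact h2
  have h4 := (Nat.pow_le_pow_iff_right hp1).1 h3
  have hj' : j = 0 ∨ j = 1 := by omega
  rcases hj' with rfl | rfl
  · left
    rw [pow_zero, mul_one] at hcardeq
    exact ⟨hcardeq.symm, Subgroup.eq_bot_of_card_eq _ (by rw [hj, pow_zero])⟩
  · right
    rw [← hcardeq]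
    ring

/-- The centre of a non-abelian group of order `p ^ 3`. -/
theorem card_center_le_of_nonab {V : Type*} [Group V] [Finite V] (p : ℕ) [hp : Fact p.Prime] (hV : Nat.card V = p ^ 3)
    (hnab : ¬ ∀ a b : V, a * b = b * a) : Nat.card (center V) ≤ p := by
  have hp1 := hp.out.one_lt
  have hppos := hp.out.pos
  have hVp : IsPGroup p V := IsPGroup.of_card hV
  obtain ⟨j, hj⟩ := IsPGroup.iff_card.1 (hVp.to_subgroup (center V))
  have hdvd : Nat.card (center V) ∣ Nat.card V := Subgroup.card_subgroup_dvd_card _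
  rw [hV, hj] at hdvd
  have hj3 := (Nat.pow_dvd_pow_iff_le_right hp1).1 hdvd
  by_contra hlt
  push Not at hlt
  have hj2 : 2 ≤ j := by
    by_contra h
    have : j = 0 ∨ j = 1 := by omega
    rcases this with rfl | rfl
    · rw [hj, pow_zero] at hlt
      omega
    · rw [hj, pow_one] at hlt
      omega
  apply hnab
  have hidx := Subgroup.card_mul_index (center V)
  rw [hj, hV] at hidx
  have hcyc : IsCyclic (V ⧸ center V) := by
    have hj' : j = 2 ∨ j = 3 := by omega
    rcases hj' with rfl | rfl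
    · have hi : (center V).index = p := by
        have : p ^ 2 * (center V).index = p ^ 2 * p := by
          rw [hidx]
          ring
        exact Nat.eq_of_mul_eq_mul_left (pow_pos hppos 2) this
      rw [Subgroup.index_eq_card] at hi
      exact isCyclic_of_prime_card hi
    · have hi : (center V).index = 1 := by
        have : p ^ 3 * (center V).index = p ^ 3 * 1 := by
          rw [hidx]
          ring
        exact Nat.eq_of_mul_eq_mul_left (pow_pos hppos 3) this
      rw [Subgroup.index_eq_card] at hi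
      haveI : Subsingleton (V ⧸ center V) := (Nat.card_eq_one_iff_unique.1 hi).1
      infer_instance
  have := MonoidHom.isMulCommutative_of_isCyclic_of_ker_le_center (QuotientGroup.mk' (center V)) (by
    rw [QuotientGroup.ker_mk'])
  exact this.is_comm.comm

/-- The structure of a `p`-group of rank two with `Ω₁(Z₂)` of order `p ^ 3`. -/
theorem w3_structure (p : ℕ) [hp : Fact p.Prime] (hp2 : p ≠ 2) (hQ : IsPGroup p Q) (hr : PRankLE p 2 Q)
    (hnc : ¬ IsCyclic Q) (hW3 : Nat.card (omegaZ2 Q p hp2) = p ^ 3) :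
    omegaZ2 Q p hp2 ⊔ centralizer ((omegaZ2 Q p hp2 : Subgroup Q) : Set Q) = ⊤ ∧
      IsCyclic ↥(centralizer ((omegaZ2 Q p hp2 : Subgroup Q) : Set Q)) ∧
      (∀ u ∈ centralizer ((omegaZ2 Q p hp2 : Subgroup Q) : Set Q), u ^ p = 1 → u ∈ omegaZ2 Q p hp2) ∧
      Nat.card ↥(omegaZ2 Q p hp2 ⊓ centralizer ((omegaZ2 Q p hp2 : Subgroup Q) : Set Q)) = p ∧
      ¬ ∀ a b : ↥(omegaZ2 Q p hp2), a * b = b * a := by
  classical
  set W := omegaZ2 Q p hp2 with hW
  set T := centralizer ((W : Subgroup Q) : Set Q) with hT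
  have hp1 := hp.out.one_lt
  have hppos := hp.out.pos
  haveI hWc : W.Characteristic := omegaZ2_char p hp2
  haveI hWn : W.Normal := Subgroup.normal_of_characteristic W
  haveI hTn : T.Normal := inferInstance
  haveI : Group.IsNilpotent Q := hQ.isNilpotent
  have hWexp : ∀ w ∈ W, w ^ p = 1 := fun w hw => hw.2
  have hZ2 : ∀ w ∈ W, ∀ g : Q, g * w * g⁻¹ * w⁻¹ ∈ center Q := by
    intro w hw g
    have h1 := mem_Z2_iff.1 hw.1 g
    have h2 : g * w * g⁻¹ * w⁻¹ = (w * g * w⁻¹ * g⁻¹)⁻¹ := by group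
    rw [h2]
    exact Subgroup.inv_mem _ h1
  have hnab : ¬ ∀ a b : ↥W, a * b = b * a := by
    intro hcomm
    have h1 := hr W ⟨⟨hcomm⟩⟩ (fun a ha => ha.2)
    rw [hW3] at h1
    have := (Nat.pow_le_pow_iff_right hp1).1 h1
    omega
  set D := W ⊓ T with hD
  have hDmem : ∀ x, x ∈ D ↔ x ∈ W ∧ ∀ w ∈ W, w * x = x * w := by
    intro x
    rw [hD, Subgroup.mem_inf, hT, mem_centralizer_iff]
    rfl
  have hDle : Nat.card D ≤ p := by
    have h1 := card_center_le_of_nonab p hW3 hnab
    refine le_trans (le_of_eq ?_) h1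
    have h2 : D.subgroupOf W = center ↥W := by
      ext x
      rw [Subgroup.mem_subgroupOf, hDmem, Subgroup.mem_center_iff]
      constructor
      · rintro ⟨-, h⟩ g
        exact Subtype.ext (h g g.2)
      · intro h
        refine ⟨x.2, fun w hw => ?_⟩
        exact congrArg Subtype.val (h ⟨w, hw⟩)
    rw [← h2]
    exact (Nat.card_congr (Subgroup.subgroupOfEquivOfLe inf_le_left).toEquiv).symm
  have hWb : W ≠ ⊥ := by
    intro h
    rw [h, Subgroup.card_bot] at hW3
    have : 1 < p ^ 3 := Nat.one_lt_pow (by norm_num) hp1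
    omega
  obtain ⟨z, hzm, hz1, hzp⟩ := exists_order_p_of_ne_bot p (hQ.to_subgroup _) (normal_inf_center_ne_bot W hWb)
  have hzW : z ∈ W := hzm.1
  have hzZ : z ∈ center Q := hzm.2
  have hzD : z ∈ D := (hDmem z).2 ⟨hzW, fun w _ => Subgroup.mem_center_iff.1 hzZ w⟩
  have hzc : Nat.card (zpowers z) = p := by
    rw [Nat.card_zpowers]
    exact orderOf_eq_prime hzp hz1
  have hDz : zpowers z = D := by
    apply Subgroup.eq_of_le_of_card_ge
    · rwa [zpowers_le]
    · rw [hzc]
      exact hDle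
  have hDcard : Nat.card D = p := by rw [← hDz, hzc]
  have hDcent : D ≤ center Q := by
    rw [← hDz, zpowers_le]
    exact hzZ
  haveI hDn : D.Normal := by
    constructor
    intro n hn g
    have h1 := Subgroup.mem_center_iff.1 (hDcent hn) g
    rw [h1, mul_assoc, mul_inv_cancel, mul_one]
    exact hn
  have hcommD : ∀ w ∈ W, ∀ g : Q, g * w * g⁻¹ * w⁻¹ ∈ D := by
    intro w hw g
    have h1 : g * w * g⁻¹ * w⁻¹ ∈ W := W.mul_mem (hWn.conj_mem w hw g) (W.inv_mem hw)
    refine (hDmem _).2 ⟨h1, fun v _ => Subgroup.mem_center_iff.1 (hZ2 w hw g) v⟩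
  have hDEA : IsElementaryAbelian p D := by
    refine ⟨⟨⟨fun a b => Subtype.ext (Subgroup.mem_center_iff.1 (hDcent a.2) b).symm⟩⟩, fun a ha => hWexp a ha.1⟩
  -- sections `E w`
  have hEw : ∀ w ∈ W, w ∉ D → (D ⊔ zpowers w).Normal ∧ IsElementaryAbelian p (D ⊔ zpowers w) ∧
      Nat.card ↥(D ⊔ zpowers w) = p ^ 2 := by
    intro w hw hwD
    refine ⟨normal_sup_zpowers D w (hcommD w hw), isElementaryAbelian_sup_zpowers hDEA (hWexp w hw)
      (fun e he => (Subgroup.mem_center_iff.1 (hDcent he) w)), ?_⟩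
    rw [card_sup_zpowers p D hwD (hWexp w hw), hDcard, pow_two]
  have hEwW : ∀ w ∈ W, D ⊔ zpowers w ≤ W := fun w hw => sup_le inf_le_left (by rwa [zpowers_le])
  -- two generators
  obtain ⟨w₁, hw₁W, hw₁D⟩ : ∃ w₁ ∈ W, w₁ ∉ D := by
    by_contra h
    push Not at h
    have h1 : W ≤ D := h
    have h2 := Subgroup.card_le_of_le h1
    rw [hW3, hDcard] at h2
    have : p < p ^ 3 := by
      calc p = p ^ 1 := (pow_one p).symm
        _ < p ^ 3 := Nat.pow_lt_pow_right hp1 (by norm_num)
    omega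
  obtain ⟨hE₁n, hE₁e, hE₁c⟩ := hEw w₁ hw₁W hw₁D
  set E₁ := D ⊔ zpowers w₁ with hE₁
  obtain ⟨w₂, hw₂W, hw₂E⟩ : ∃ w₂ ∈ W, w₂ ∉ E₁ := by
    by_contra h
    push Not at h
    have h1 : W ≤ E₁ := h
    have h2 := Subgroup.card_le_of_le h1
    rw [hW3, hE₁c] at h2
    have := (Nat.pow_le_pow_iff_right hp1).1 h2
    omega
  have hw₂D : w₂ ∉ D := fun h => hw₂E (Subgroup.mem_sup_left h)
  obtain ⟨hE₂n, hE₂e, hE₂c⟩ := hEw w₂ hw₂W hw₂D
  set E₂ := D ⊔ zpowers w₂ with hE₂
  have hsupW : E₁ ⊔ zpowers w₂ = W := by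
    apply Subgroup.eq_of_le_of_card_ge (sup_le (hEwW w₁ hw₁W) (by rwa [zpowers_le]))
    haveI := hE₁n
    rw [card_sup_zpowers p E₁ hw₂E (hWexp w₂ hw₂W), hE₁c, hW3, pow_succ]
  -- the index of `T`
  have hidx : T.index ≤ p ^ 2 := by
    haveI := hE₁n
    haveI := hE₂n
    have h1 := index_centralizer_elem_le p hQ E₁ hE₁e hE₁c
    have h2 := index_centralizer_elem_le p hQ E₂ hE₂e hE₂c
    have h3 := Subgroup.index_inf_le (H := centralizer (E₁ : Set Q)) (K := centralizer (E₂ : Set Q))
    have h4 : centralizer (E₁ : Set Q) ⊓ centralizer (E₂ : Set Q) ≤ T := by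
      intro c hc
      obtain ⟨hc1, hc2⟩ := Subgroup.mem_inf.1 hc
      rw [hT, mem_centralizer_iff]
      intro w hw
      have hle : W ≤ centralizer ({c} : Set Q) := by
        rw [← hsupW]
        apply sup_le
        · intro e he
          rw [mem_centralizer_singleton_iff]
          rw [mem_centralizer_iff] at hc1
          exact hc1 e he
        · rw [zpowers_le, mem_centralizer_singleton_iff]
          rw [mem_centralizer_iff] at hc2
          exact hc2 w₂ (Subgroup.mem_sup_right (mem_zpowers w₂))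
      have := hle hw
      rw [mem_centralizer_singleton_iff] at this
      exact this
    have h5 : T.index ∣ (centralizer (E₁ : Set Q) ⊓ centralizer (E₂ : Set Q)).index := Subgroup.index_dvd_of_le h4
    have h6 := Nat.le_of_dvd (Nat.pos_of_ne_zero Subgroup.index_ne_zero_of_finite) h5
    calc T.index ≤ _ := h6
      _ ≤ _ := h3
      _ ≤ p * p := Nat.mul_le_mul h1 h2
      _ = p ^ 2 := (pow_two p).symm
  -- the join
  have htop : W ⊔ T = ⊤ := by
    apply Subgroup.eq_top_of_le_card
    rw [card_sup_eq_of_normal W T]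
    have h1 : Nat.card ↥(T ⊓ W) * T.relIndex W = Nat.card W := by
      rw [← Subgroup.inf_relIndex_right]
      exact card_mul_relIndex inf_le_right
    rw [inf_comm, hDcard, hW3] at h1
    have h2 : T.relIndex W = p ^ 2 := by
      have : p * T.relIndex W = p * p ^ 2 := by
        rw [h1]
        ring
      exact Nat.eq_of_mul_eq_mul_left hppos this
    rw [h2, ← Subgroup.card_mul_index T]
    exact Nat.mul_le_mul_left _ hidx
  -- elements of order `p`
  have hOmega : ∀ u ∈ T, u ^ p = 1 → u ∈ W := by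
    intro u hu hup
    by_contra huW
    have huE : u ∉ E₁ := fun h => huW (hEwW w₁ hw₁W h)
    haveI := hE₁n
    have h1 := hr (E₁ ⊔ zpowers u) (isElementaryAbelian_sup_zpowers hE₁e hup (fun e he => by
      have h2 := hEwW w₁ hw₁W he
      rw [hT, mem_centralizer_iff] at hu
      exact (hu e h2).symm)).1 (isElementaryAbelian_sup_zpowers hE₁e hup (fun e he => by
      have h2 := hEwW w₁ hw₁W he
      rw [hT, mem_centralizer_iff] at hu
      exact (hu e h2).symm)).2
    rw [card_sup_zpowers p E₁ huE hup, hE₁c] at h1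
    have h3 : p ^ 2 * p = p ^ 3 := by ring
    rw [h3] at h1
    have := (Nat.pow_le_pow_iff_right hp1).1 h1
    omega
  refine ⟨htop, ?_, hOmega, hDcard, hnab⟩
  -- `T` is cyclic
  apply isCyclic_of_uniqueP_odd hp2 _ ↥T rfl (hQ.to_subgroup T)
  intro H K hH hK
  have key : ∀ L : Subgroup ↥T, Nat.card L = p → L.map T.subtype = D := by
    intro L hL
    apply Subgroup.eq_of_le_of_card_ge
    · rintro _ ⟨l, hl, rfl⟩
      have h1 : l ^ p = 1 := by
        have h2 := Subgroup.orderOf_dvd_natCard L hl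
        rw [hL] at h2
        exact orderOf_dvd_iff_pow_eq_one.1 h2
      have h2 : (l : Q) ^ p = 1 := congrArg Subtype.val h1
      exact Subgroup.mem_inf.2 ⟨hOmega _ l.2 h2, l.2⟩
    · rw [hDcard, Nat.card_congr (L.equivMapOfInjective _ T.subtype_injective).symm.toEquiv, hL]
  exact Subgroup.map_injective T.subtype_injective ((key H hH).trans (key K hK).symm)

/-- Fibres of the `p`-power map and the index of the subgroup generated by `p`-th powers. -/
theorem index_powSub_le_of_fiber (p : ℕ) (W : Subgroup Q) (hf : ∀ x y : Q, x ^ p = y ^ p → x⁻¹ * y ∈ W) :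
    (Meta.powSub Q p).index ≤ Nat.card W := by
  classical
  set P := Meta.powSub Q p with hP
  have hmem : ∀ x : Q, x ^ p ∈ P := fun x => Subgroup.subset_closure ⟨x, rfl⟩
  let f : Q → ↥P := fun x => ⟨x ^ p, hmem x⟩
  have hinv : ∀ x : Q, (Function.invFun f (f x)) ^ p = x ^ p := by
    intro x
    have h1 := Function.invFun_eq (f := f) (b := f x) ⟨x, rfl⟩
    exact congrArg Subtype.val h1
  let g : Q → ↥P × ↥W := fun x => (f x, ⟨(Function.invFun f (f x))⁻¹ * x, hf _ _ (hinv x)⟩)
  have hg : Function.Injective g := by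
    intro x y hxy
    have h1 : f x = f y := congrArg Prod.fst hxy
    have h2 : (Function.invFun f (f x))⁻¹ * x = (Function.invFun f (f y))⁻¹ * y :=
      congrArg (fun z : ↥P × ↥W => ((z.2 : ↥W) : Q)) hxy
    rw [h1] at h2
    exact mul_left_cancel h2
  have h3 := Nat.card_le_card_of_injective g hg
  rw [Nat.card_prod, ← Subgroup.card_mul_index P] at h3
  exact Nat.le_of_mul_le_mul_left h3 Nat.card_pos

end Q

/-- A group of prime order `q ∤ p (p - 1)` acts trivially on cyclic `p`-groups. -/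
theorem hom_trivial_of_cyclic {Γ : Type v} [Group Γ] [Finite Γ] {V : Type u} [Group V] [Finite V] [IsCyclic V] (p q k : ℕ)
    [hp : Fact p.Prime] (hV : Nat.card V = p ^ k) (hq : q.Prime) (hΓ : Nat.card Γ = q) (hqn : ¬ q ∣ p * (p - 1))
    (ψ : Γ →* MulAut V) (g : Γ) : ψ g = 1 := by
  by_contra hne
  have h1 : orderOf (ψ g) ≠ 1 := fun h => hne (orderOf_eq_one_iff.1 h)
  have h2 : orderOf (ψ g) ∣ q := by
    rw [← hΓ]
    exact (orderOf_map_dvd ψ g).trans (orderOf_dvd_natCard g)
  have h3 : orderOf (ψ g) = q := ((Nat.dvd_prime hq).1 h2).resolve_left h1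
  have h4 : q ∣ Nat.card (MulAut V) := h3 ▸ orderOf_dvd_natCard _
  rw [IsCyclic.card_mulAut, hV] at h4
  rcases Nat.eq_zero_or_pos k with rfl | hk
  · simp at h4
    exact hq.ne_one h4
  rw [Nat.totient_prime_pow hp.out hk] at h4
  rcases (Nat.Prime.dvd_mul hq).1 h4 with h5 | h5
  · have h6 := hq.dvd_of_dvd_pow h5
    exact hqn (Dvd.dvd.mul_right h6 _)
  · exact hqn (Dvd.dvd.mul_left h5 _)

section GLevel

variable {G : Type u} [Group G] [Finite G]

/-- The second half of part (c) of **S1454**. -/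
theorem s1454_c2 (p : ℕ) [hp : Fact p.Prime] (hp2 : p ≠ 2) (R A : Subgroup G) (hR : IsPGroup p R) (hr : PRankLE p 2 R)
    (hA : A ≤ normalizer (R : Set G)) (hcop : (Nat.card A).Coprime p) (q : ℕ) (hq : q.Prime) (hAq : Nat.card A = q)
    (hqn : ¬ q ∣ p * (p - 1)) (hRA : ⁅R, A⁆ = R) (hnc : ¬ IsMulCommutative R) : Nat.card R = p ^ 3 := by
  classical
  set σ := conjHomOf R A hA with hσ
  have hp1 := hp.out.one_lt
  have hcyc : ¬ IsCyclic ↥R := fun h => hnc ⟨⟨fun a b => by
    haveI := h
    exact IsCyclic.commutative.is_comm.comm a b⟩⟩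
  set W := omegaZ2 ↥R p hp2 with hW
  haveI hWc : W.Characteristic := omegaZ2_char p hp2
  haveI hWn : W.Normal := Subgroup.normal_of_characteristic W
  have hσW : ∀ (a : ↥A) (w : ↥R), w ∈ W → σ a w ∈ W := fun a w hw =>
    (characteristic_iff_le_comap.1 hWc (σ a)) hw
  have hσcoe : ∀ (a : ↥A) (r : ↥R), ((σ a r : ↥R) : G) = (a : G) * r * (a : G)⁻¹ := fun a r => rfl
  rcases omegaZ2_card_cases p hp2 hR hr hcyc with ⟨hW2, hWcomm⟩ | hW3
  · exfalso
    apply hnc
    have hWe : IsElementaryAbelian p W := by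
      refine ⟨⟨⟨fun a b => ?_⟩⟩, fun a ha => ha.2⟩
      have h1 : ⁅a, b⁆ ∈ commutator ↥W := by
        rw [_root_.commutator_def]
        exact Subgroup.commutator_mem_commutator (mem_top a) (mem_top b)
      rw [hWcomm, Subgroup.mem_bot, commutatorElement_eq_one_iff_mul_comm] at h1
      exact h1
    have hTidx := index_centralizer_elem_le p hR W hWe hW2
    set T := centralizer ((W : Subgroup ↥R) : Set ↥R) with hT
    haveI hTc : T.Characteristic := inferInstance
    haveI hTn : T.Normal := Subgroup.normal_of_characteristic T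
    set ψ := (quotAut T).comp σ with hψ
    obtain ⟨k, hk⟩ := IsPGroup.iff_card.1 (hR.to_quotient T)
    have hk1 : k ≤ 1 := by
      have h1 : p ^ k ≤ p ^ 1 := by
        rw [← hk, pow_one, ← Subgroup.index_eq_card]
        exact hTidx
      exact (Nat.pow_le_pow_iff_right hp1).1 h1
    haveI hVc : IsCyclic (↥R ⧸ T) := by
      rcases Nat.le_one_iff_eq_zero_or_eq_one.1 hk1 with rfl | rfl
      · rw [pow_zero] at hk
        haveI : Subsingleton (↥R ⧸ T) := (Nat.card_eq_one_iff_unique.1 hk).1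
        infer_instance
      · rw [pow_one] at hk
        exact isCyclic_of_prime_card hk
    have hψ1 : ∀ a, ψ a = 1 := hom_trivial_of_cyclic p q k hk hq hAq hqn ψ
    have hmodT : ∀ (a : ↥A) (r : ↥R), r * (σ a r)⁻¹ ∈ T := by
      intro a r
      have h1 := quotAut_mk T (σ a) r
      have h2 : quotAut T (σ a) = 1 := hψ1 a
      rw [h2, MulAut.one_apply, QuotientGroup.eq] at h1
      have h3 : r * (σ a r)⁻¹ = r * (r⁻¹ * σ a r)⁻¹ * r⁻¹ := by group
      rw [h3]
      exact hTn.conj_mem _ (T.inv_mem h1) r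
    have hle : ⁅R, A⁆ ≤ T.map R.subtype := by
      rw [Subgroup.commutator_le]
      intro r hr' a ha
      refine ⟨_, hmodT ⟨a, ha⟩ ⟨r, hr'⟩, ?_⟩
      simp only [Subgroup.subtype_apply, Subgroup.coe_mul, InvMemClass.coe_inv, hσcoe, commutatorElement_def]
      group
    have hall : ∀ r : ↥R, r ∈ T := by
      intro r
      have h1 : (r : G) ∈ ⁅R, A⁆ := by
        rw [hRA]
        exact r.2
      obtain ⟨t, ht, hte⟩ := hle h1
      have : t = r := Subtype.ext hte
      rwa [← this]
    have hWcent : ∀ w ∈ W, ∀ g : ↥R, w * g = g * w := by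
      intro w hw g
      have h1 := hall g
      rw [hT, mem_centralizer_iff] at h1
      exact h1 w hw
    have hΩ : ∀ u : ↥R, u ^ p = 1 → u ∈ W := by
      intro u hup
      by_contra huW
      have hEA := isElementaryAbelian_sup_zpowers hWe hup (fun e he => (hWcent e he u).symm)
      have h1 := hr _ hEA.1 hEA.2
      rw [card_sup_zpowers p W huW hup, hW2] at h1
      have h3 : p ^ 2 * p = p ^ 3 := by ring
      rw [h3] at h1
      have := (Nat.pow_le_pow_iff_right hp1).1 h1
      omega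
    have hfib := fiber_of_central_omega (G := ↥R) p hp2 _ ⊤ rfl (hR.to_subgroup ⊤) (by
      intro u _ hup g _
      exact (hWcent u (hΩ u hup) g).symm)
    have hidx : (Meta.powSub ↥R p).index ≤ p ^ 2 := by
      rw [← hW2]
      apply index_powSub_le_of_fiber
      intro x y hxy
      exact hΩ _ (hfib x (mem_top x) y (mem_top y) hxy)
    exact comm_of_commutator_eq p hp2 R A hR hA hcop hRA hidx
  · obtain ⟨htop, hTc, -, -, -⟩ := w3_structure p hp2 hR hr hcyc hW3
    set T := centralizer ((W : Subgroup ↥R) : Set ↥R) with hT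
    haveI hTch : T.Characteristic := inferInstance
    haveI hTn : T.Normal := Subgroup.normal_of_characteristic T
    obtain ⟨k, hk⟩ := IsPGroup.iff_card.1 (hR.to_subgroup T)
    have hψ1 : ∀ a, ((restrictAut T).comp σ) a = 1 := hom_trivial_of_cyclic p q k hk hq hAq hqn _
    have hfixT : ∀ (a : ↥A) (t : ↥R), t ∈ T → σ a t = t := by
      intro a t ht
      have h1 := hψ1 a
      have h2 := congrArg (fun τ : MulAut ↥T => ((τ ⟨t, ht⟩ : ↥T) : ↥R)) h1
      exact h2
    have hle : ⁅R, A⁆ ≤ W.map R.subtype := by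
      rw [Subgroup.commutator_le]
      intro r hr' a ha
      have hm : (⟨r, hr'⟩ : ↥R) ∈ W ⊔ T := by
        rw [htop]
        exact mem_top _
      rw [Subgroup.mem_sup_of_normal_right] at hm
      obtain ⟨w, hw, t, ht, hwt⟩ := hm
      have hrr : r = (w : G) * t := by
        have := congrArg Subtype.val hwt
        exact this.symm
      have ht' : a * (t : G) * a⁻¹ = t := congrArg Subtype.val (hfixT ⟨a, ha⟩ t ht)
      refine ⟨w * (σ ⟨a, ha⟩ w)⁻¹, W.mul_mem hw (W.inv_mem (hσW _ w hw)), ?_⟩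
      have h5 : a * r * a⁻¹ = (a * (w : G) * a⁻¹) * (t : G) := by
        rw [hrr]
        calc a * ((w : G) * (t : G)) * a⁻¹ = (a * (w : G) * a⁻¹) * (a * (t : G) * a⁻¹) := by group
          _ = _ := by rw [ht']
      have key : r * a * r⁻¹ * a⁻¹ = (w : G) * (a * (w : G) * a⁻¹)⁻¹ := by
        calc r * a * r⁻¹ * a⁻¹ = r * (a * r * a⁻¹)⁻¹ := by group
          _ = (w : G) * (t : G) * ((a * (w : G) * a⁻¹) * (t : G))⁻¹ := by rw [h5, hrr]
          _ = _ := by group
      simp only [Subgroup.subtype_apply, Subgroup.coe_mul, InvMemClass.coe_inv, hσcoe, commutatorElement_def]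
      exact key.symm
    have hsub : W.map R.subtype ≤ R := Subgroup.map_subtype_le W
    have hReq : R = W.map R.subtype := le_antisymm (by
      calc R = ⁅R, A⁆ := hRA.symm
        _ ≤ _ := hle) hsub
    rw [hReq, Nat.card_congr (W.equivMapOfInjective _ R.subtype_injective).symm.toEquiv]
    exact hW3

/-- The first half of part (c) of **S1454**. -/
theorem s1454_c1 (p : ℕ) [hp : Fact p.Prime] (hp2 : p ≠ 2) (R A : Subgroup G) (hR : IsPGroup p R) (hRn : IsNarrow p R)
    (hA : A ≤ normalizer (R : Set G)) (hAodd : Odd (Nat.card A)) (hfaith : A ⊓ centralizer (R : Set G) = ⊥)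
    (hq : (Nat.card A).Prime) (hqn : ¬ Nat.card A ∣ p * (p - 1)) : 2 * Nat.card A ∣ p + 1 := by
  classical
  set q := Nat.card A with hqdef
  haveI : Fact q.Prime := ⟨hq⟩
  have hp1 := hp.out.one_lt
  obtain ⟨g, hg⟩ := exists_prime_orderOf_dvd_card' (G := ↥A) q dvd_rfl
  set σ := conjHomOf R A hA with hσ
  have hgnc : ∀ t : ↥A, (∀ x : ↥R, σ t x = x) → t = 1 := by
    intro t ht
    have h1 : (t : G) ∈ A ⊓ centralizer (R : Set G) := by
      refine Subgroup.mem_inf.2 ⟨t.2, ?_⟩
      rw [mem_centralizer_iff]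
      intro x hx
      have h3 := congrArg Subtype.val (ht ⟨x, hx⟩)
      exact (mul_inv_eq_iff_eq_mul.1 h3).symm
    rw [hfaith, Subgroup.mem_bot] at h1
    exact Subtype.ext h1
  have hg1 : g ≠ 1 := by
    rintro rfl
    rw [orderOf_one] at hg
    exact hq.one_lt.ne hg
  have hqp : q ≠ p := by
    intro h
    exact hqn (by rw [h]; exact dvd_mul_right _ _)
  have hcop : (orderOf g).Coprime p := by
    rw [hg]
    exact (Nat.coprime_primes hq hp.out).2 hqp
  have key : q ∣ p + 1 := by
    by_cases hr : PRankLE p 2 R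
    · by_cases hcyc : IsCyclic ↥R
      · exfalso
        obtain ⟨k, hk⟩ := IsPGroup.iff_card.1 hR
        have h1 := hom_trivial_of_cyclic p q k hk hq rfl hqn σ g
        apply hg1
        apply hgnc
        intro x
        rw [h1, MulAut.one_apply]
      · set ρ := sectionHom p hp2 R A hA with hρ
        obtain ⟨φ, hφ⟩ := exists_gl2_rep p (quot_omegaZ2_comm p hp2) (quot_omegaZ2_exp p hp2)
          (card_omegaZ2_quot p hp2 hR hr hcyc) ρ
        have hφg : φ g ≠ 1 := by
          intro h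
          have h1 : ρ g = 1 := MulEquiv.ext (hφ g h)
          have h2 := section_key p hp2 R A hR hr hA hcyc g hcop h1
          apply hg1
          apply hgnc
          intro x
          exact Subtype.ext (h2 x)
        obtain ⟨q', hq', hq'g, hq'o⟩ := exists_prime_dvd_of_hom_ne_one φ g hφg
        rw [hg] at hq'g
        have hq'q : q' = q := (Nat.prime_dvd_prime_iff_eq hq' hq).1 hq'g
        rw [hq'q] at hq'o
        have h2 : q ∣ Nat.card (GL (Fin 2) (ZMod p)) := hq'o.trans (orderOf_dvd_natCard _)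
        rw [Matrix.card_GL_field, Fin.prod_univ_two] at h2
        simp only [ZMod.card, Fin.val_zero, Fin.val_one, pow_zero, pow_one] at h2
        have h3 : p ^ 2 - 1 = (p - 1) * (p + 1) := by
          obtain ⟨r, rfl⟩ : ∃ r, p = r + 1 := ⟨p - 1, by omega⟩
          simp only [Nat.add_sub_cancel]
          have : (r + 1) ^ 2 = (r * (r + 1 + 1)) + 1 := by ring
          omega
        have h4 : p ^ 2 - p = p * (p - 1) := by
          rw [Nat.mul_sub, mul_one, pow_two]
        rw [h3, h4] at h2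
        rcases (Nat.Prime.dvd_mul hq).1 h2 with h5 | h5
        · rcases (Nat.Prime.dvd_mul hq).1 h5 with h6 | h6
          · exact absurd (Dvd.dvd.mul_left h6 _) hqn
          · exact h6
        · exact absurd h5 hqn
    · exfalso
      have h1 := s1454_b p hp2 R A hR hRn hA hfaith hr (g : G) g.2 (by rwa [Subgroup.orderOf_coe])
      rw [Subgroup.orderOf_coe, hg] at h1
      exact hqn (Dvd.dvd.mul_left h1 _)
  have hq2 : (Nat.Coprime 2 q) := by
    rw [Nat.coprime_two_left]
    exact hAodd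
  have h2 : 2 ∣ p + 1 := by
    have hpodd : Odd p := hp.out.odd_of_ne_two hp2
    exact hpodd.add_one.two_dvd
  exact hq2.mul_dvd_of_dvd_of_dvd h2 key

/-- **S1454**. -/
theorem s1454_core (p : ℕ) [hp : Fact p.Prime] (hp2 : p ≠ 2) (R A : Subgroup G) (hR : IsPGroup p R) (hRn : IsNarrow p R)
    (hA : A ≤ normalizer (R : Set G)) (hAs : Group.IsSolvable A) (hAodd : Odd (Nat.card A))
    (hfaith : A ⊓ centralizer (R : Set G) = ⊥) :
    (commutator ↥A ≤ pCore p ↥A ∧ ((pCore p ↥A).index).Coprime p) ∧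
      (¬ PRankLE p 2 R → ∀ a ∈ A, (orderOf a).Coprime p → orderOf a ∣ p - 1) ∧
      ((Nat.card A).Prime → ¬ Nat.card A ∣ p * (p - 1) →
        2 * Nat.card A ∣ p + 1 ∧ (⁅R, A⁆ = R → ¬ IsMulCommutative R → Nat.card R = p ^ 3)) := by
  refine ⟨s1454_a p hp2 R A hR hRn hA hAs hAodd hfaith,
    fun hr a ha hc => s1454_b p hp2 R A hR hRn hA hfaith hr a ha hc, fun hq hqn => ⟨?_, ?_⟩⟩
  · exact s1454_c1 p hp2 R A hR hRn hA hAodd hfaith hq hqn
  · intro hRA hnc
    have hqp : Nat.card A ≠ p := by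
      intro h
      exact hqn (by rw [h]; exact dvd_mul_right _ _)
    by_cases hr : PRankLE p 2 R
    · exact s1454_c2 p hp2 R A hR hr hA ((Nat.coprime_primes hq hp.out).2 hqp) _ hq rfl hqn hRA hnc
    · exfalso
      -- an element of prime order divides `p - 1`
      haveI : Fact (Nat.card A).Prime := ⟨hq⟩
      obtain ⟨g, hg⟩ := exists_prime_orderOf_dvd_card' (G := ↥A) (Nat.card A) dvd_rfl
      have h1 := s1454_b p hp2 R A hR hRn hA hfaith hr (g : G) g.2 (by
        rw [Subgroup.orderOf_coe, hg]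
        exact (Nat.coprime_primes hq hp.out).2 hqp)
      rw [Subgroup.orderOf_coe, hg] at h1
      exact hqn (Dvd.dvd.mul_left h1 _)

end GLevel

end Cfsg.Agent.Lib.OddLocal
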