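import Cfsg.Agent.Lib.OddLocal.Trans2
import Cfsg.Agent.Lib.OddLocal.Sup

/-!
Passing the transitivity conclusions from `A` to an overgroup `P` in which `A` is subnormal.
-/

set_option autoImplicit false
set_option linter.unusedSectionVars false
set_option linter.style.haveILetI false

namespace Cfsg.Agent.Lib.OddLocal

open Subgroup Cfsg

open scoped commutatorElement

open Cfsg.Agent.Lib.Coprime (mem_conj_map conj_mem_conj_map conj_map_conj_map conj_map_one
  conj_map_mono card_conj_map mem_normalizer_of_conj_le conj_map_eq_iff_mem_normalizer)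

variable {G : Type*} [Group G] [Finite G] {A P : Subgroup G}

theorem primesNotDvd_eq_of_le (hAP : A ≤ P)
    (hprimes : ∀ r : ℕ, r.Prime → r ∣ Nat.card P → r ∣ Nat.card A) :
    primesNotDvd (Nat.card P) = primesNotDvd (Nat.card A) := by
  ext r
  constructor
  · rintro ⟨hr, hnd⟩
    exact ⟨hr, fun h => hnd (h.trans (Subgroup.card_dvd_of_le hAP))⟩
  · rintro ⟨hr, hnd⟩
    exact ⟨hr, fun h => hnd (hprimes r hr h)⟩

theorem transitivityHypothesis_of_le (hA : TransitivityHypothesis A) (hP : P ≠ ⊤) (hAP : A ≤ P)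
    (hprimes : ∀ r : ℕ, r.Prime → r ∣ Nat.card P → r ∣ Nat.card A) : TransitivityHypothesis P := by
  refine ⟨?_, hP, ?_⟩
  · intro h
    apply hA.1
    rw [eq_bot_iff, ← h]
    exact hAP
  · intro X hX hPX
    rw [primesNotDvd_eq_of_le hAP hprimes]
    apply le_antisymm
    · apply sSup_le
      rintro Y ⟨hYX, hYπ, hPY⟩
      exact mem_piCoreOf_of_inv hA hX (hAP.trans hPX) hYX hYπ (hAP.trans hPY)
    · exact le_sSup ⟨piCoreOf_le _ _, piCoreOf_isPi _ _, hPX.trans (le_normalizer_piCoreOf _ X)⟩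

section Core

local notation "π" => primesNotDvd (Nat.card A)

local notation "𝐊" => piCoreOf (primesNotDvd (Nat.card A)) (centralizer (A : Set G))

/-- `K ⊓ C(P) = O_π(C(P))`. -/
theorem kCore_inf_centralizer (hG : IsMinSimpleOddOrder G) (hA : TransitivityHypothesis A)
    (hAP : A ≤ P) : 𝐊 ⊓ centralizer (P : Set G) = piCoreOf π (centralizer (P : Set G)) := by
  have hCP : centralizer (P : Set G) ≤ centralizer (A : Set G) := Subgroup.centralizer_le hAP
  apply le_antisymm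
  · refine le_piCoreOf inf_le_right ?_ ((piCoreOf_isPi _ _).mono inf_le_left)
    intro c hc
    apply mem_normalizer_of_conj_le
    intro x hx
    obtain ⟨hx1, hx2⟩ := Subgroup.mem_inf.1 hx
    refine Subgroup.mem_inf.2 ⟨?_, mul_mem (mul_mem hc hx2) (inv_mem hc)⟩
    exact (Subgroup.mem_normalizer_iff.1 (le_normalizer_piCoreOf π _ (hCP hc)) x).1 hx1
  · exact le_inf (le_kCore hG hA ((piCoreOf_le _ _).trans hCP) (piCoreOf_isPi _ _)) (piCoreOf_le _ _)

theorem conj_mem_centralizer_of_normalizer {g c : G} (hg : g ∈ normalizer (A : Set G))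
    (hc : c ∈ centralizer (A : Set G)) : g * c * g⁻¹ ∈ centralizer (A : Set G) := by
  rw [Subgroup.mem_centralizer_iff]
  intro h hh
  have h1 : g⁻¹ * h * g ∈ A := by
    have := (Subgroup.mem_normalizer_iff.1 (inv_mem hg) h).1 hh
    simpa using this
  have h2 := Subgroup.mem_centralizer_iff.1 hc _ h1
  calc h * (g * c * g⁻¹) = g * ((g⁻¹ * h * g) * c) * g⁻¹ := by group
    _ = g * (c * (g⁻¹ * h * g)) * g⁻¹ := by rw [h2]
    _ = g * c * g⁻¹ * h := by group

theorem le_normalizer_kCore (hG : IsMinSimpleOddOrder G) (hA : TransitivityHypothesis A) :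
    normalizer (A : Set G) ≤ normalizer (𝐊 : Set G) := by
  intro g hg
  apply mem_normalizer_of_conj_le
  intro x hx
  have hle : (𝐊).map (MulAut.conj g).toMonoidHom ≤ 𝐊 := by
    apply le_kCore hG hA
    · rintro _ ⟨y, hy, rfl⟩
      exact conj_mem_centralizer_of_normalizer hg (piCoreOf_le _ _ hy)
    · exact (piCoreOf_isPi _ _).conj g
  exact hle (conj_mem_conj_map _ g x hx)

theorem maxInv_conj_normalizer {g : G} (hg : g ∈ normalizer (A : Set G)) {Q : Subgroup G} {q : ℕ}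
    (hQ : Q ∈ maxInvSubgroups ⊤ A {q}) : Q.map (MulAut.conj g).toMonoidHom ∈ maxInvSubgroups ⊤ A {q} := by
  have inv_conj : ∀ (c : G), c ∈ normalizer (A : Set G) → ∀ Y ∈ invSubgroups ⊤ A {q},
      Y.map (MulAut.conj c).toMonoidHom ∈ invSubgroups ⊤ A {q} := by
    intro c hc Y hY
    refine ⟨le_top, IsPiSub.conj hY.2.1 c, ?_⟩
    intro a ha
    rw [← conj_map_eq_iff_mem_normalizer, conj_map_conj_map]
    have h0 : c⁻¹ * a * c ∈ A := by
      have := (Subgroup.mem_normalizer_iff.1 (inv_mem hc) a).1 ha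
      simpa using this
    have h1 : a * c = c * (c⁻¹ * a * c) := by group
    rw [h1, ← conj_map_conj_map, (conj_map_eq_iff_mem_normalizer Y _).2 (hY.2.2 h0)]
  refine ⟨inv_conj g hg Q hQ.1, fun R hR hle => ?_⟩
  have h1 : R.map (MulAut.conj g⁻¹).toMonoidHom ∈ invSubgroups ⊤ A {q} :=
    inv_conj g⁻¹ (inv_mem hg) R hR
  have h2 : Q ≤ R.map (MulAut.conj g⁻¹).toMonoidHom := by
    have := conj_map_mono hle g⁻¹
    rwa [conj_map_conj_map, inv_mul_cancel, conj_map_one] at this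
  have h3 := hQ.2 _ h1 h2
  rw [← h3, conj_map_conj_map, mul_inv_cancel, conj_map_one]

/-- One normal step up from `A` to `P`. -/
theorem trans_normal_step (hG : IsMinSimpleOddOrder G) (hA : TransitivityHypothesis A) (hP : P ≠ ⊤)
    (hAP : A ≤ P) (hn : P ≤ normalizer (A : Set G))
    (hprimes : ∀ r : ℕ, r.Prime → r ∣ Nat.card P → r ∣ Nat.card A) (q : ℕ) [Fact q.Prime]
    (hq : ¬ q ∣ Nat.card A)
    (htr : ∀ Q₁ ∈ maxInvSubgroups ⊤ A {q}, ∀ Q₂ ∈ maxInvSubgroups ⊤ A {q}, KConj 𝐊 Q₁ Q₂) :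
    (∀ Q₁ ∈ maxInvSubgroups ⊤ P {q}, ∀ Q₂ ∈ maxInvSubgroups ⊤ P {q},
      KConj (piCoreOf π (centralizer (P : Set G))) Q₁ Q₂) ∧
      maxInvSubgroups ⊤ P {q} ⊆ maxInvSubgroups ⊤ A {q} := by
  have hqp : q.Prime := Fact.out
  have hPsolv : Group.IsSolvable P := IsMinSimpleOddOrder.isSolvable hG hP
  have hcopPi : ∀ L : Subgroup G, IsPiSub π L → (Nat.card P).Coprime (Nat.card L) := by
    intro L hL
    refine Nat.coprime_of_dvd fun r hr h1 h2 => ?_
    exact (hL r hr h2).2 (hprimes r hr h1)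
  have hPK : P ≤ normalizer (𝐊 : Set G) := hn.trans (le_normalizer_kCore hG hA)
  have hΩne : (maxInvSubgroups ⊤ A {q}).Nonempty := by
    obtain ⟨Y, hY, -⟩ := exists_maxInv_ge (A := A) (X := ⊤) (T := ⊥) (q := q)
      ⟨le_top, isPiSub_bot _, fun a _ => by
        apply mem_normalizer_of_conj_le
        intro x hx
        rw [Subgroup.mem_bot.1 hx]
        simp⟩
    exact ⟨Y, hY⟩
  obtain ⟨⟨Q', hQ', hPQ'⟩, htrans⟩ := Agent.Lib.Basic.glauberman_subgroups hPK
    (hcopPi _ (piCoreOf_isPi _ _)) (Or.inl hPsolv) (maxInvSubgroups ⊤ A {q}) hΩne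
    (fun k hk Q hQ => maxInv_conj_normalizer (centralizer_le_normalizer' A (piCoreOf_le _ _ hk)) hQ)
    (fun a ha Q hQ => maxInv_conj_normalizer (hn ha) hQ)
    (fun Q hQ Q₂ hQ₂ => by
      obtain ⟨k, hk, h⟩ := htr Q hQ Q₂ hQ₂
      exact ⟨k, hk, h.symm⟩)
  have hsub : maxInvSubgroups ⊤ P {q} ⊆ maxInvSubgroups ⊤ A {q} := by
    intro Q₀ hQ₀
    by_cases h0 : Q₀ = ⊥
    · have h1 : Q' = Q₀ := hQ₀.2 Q' ⟨le_top, hQ'.1.2.1, hPQ'⟩ (by rw [h0]; exact bot_le)
      rw [← h1]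
      exact hQ'
    have hQ₀p : IsPGroup q Q₀ := (isPiSub_singleton_iff hqp).1 hQ₀.1.2.1
    set N := normalizer (Q₀ : Set G) with hN
    have hNne : N ≠ ⊤ := IsMinSimpleOddOrder.normalizer_ne_top hG h0
      (IsMinSimpleOddOrder.ne_top_of_isPGroup hG hqp hQ₀p)
    have hPN : P ≤ N := hQ₀.1.2.2
    have hAN : A ≤ N := hAP.trans hPN
    refine ⟨⟨le_top, hQ₀.1.2.1, hAN⟩, ?_⟩
    intro R hR hQR
    by_contra hne
    have hlt : Q₀ < R := lt_of_le_of_ne hQR (Ne.symm hne)
    have hRp : IsPGroup q R := (isPiSub_singleton_iff hqp).1 hR.2.1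
    set V := R ⊓ N with hV
    have hQV : Q₀ < V := lt_inf_normalizer hRp hlt
    have hVp : IsPGroup q V := hRp.to_le inf_le_left
    set L := piCoreOf π N with hL
    have hVL : V ≤ L := by
      refine mem_piCoreOf_of_inv hA hNne hAN inf_le_right ?_ ?_
      · exact isPiSub_primesNotDvd_of_singleton hqp hq ((isPiSub_singleton_iff hqp).2 hVp)
      · exact (le_inf hR.2.2 (hAN.trans le_normalizer)).trans Subgroup.inf_normalizer_le_normalizer_inf
    have hPL : P ≤ normalizer (L : Set G) := hPN.trans (le_normalizer_piCoreOf _ N)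
    obtain ⟨T, hT1, hT2⟩ := Agent.Lib.Basic.exists_invariant_sylow_ge hPL
      (hcopPi _ (piCoreOf_isPi _ _)) (Or.inl hPsolv) q Q₀ (hQV.le.trans hVL) hQ₀p hQ₀.1.2.2
    have hTeq : (T : Subgroup L).map L.subtype = Q₀ := hQ₀.2 _
      ⟨le_top, (isPiSub_singleton_iff hqp).2 (T.isPGroup'.map _), hT2⟩ hT1
    have hTsub : (T : Subgroup L) = Q₀.subgroupOf L := by
      rw [← hTeq]
      ext x
      simp [Subgroup.mem_subgroupOf]
    have hnd : ¬ q ∣ Q₀.relIndex L := by
      have := T.not_dvd_index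
      rwa [hTsub] at this
    apply hnd
    have h1 := Subgroup.relIndex_mul_relIndex Q₀ V L hQV.le hVL
    rw [← h1]
    apply Dvd.dvd.mul_right
    obtain ⟨k, hk⟩ := IsPGroup.iff_card.1 hVp
    have h2 : Q₀.relIndex V ∣ q ^ k := hk ▸ Subgroup.relIndex_dvd_card _ _
    obtain ⟨j, -, hj⟩ := (Nat.dvd_prime_pow hqp).1 h2
    rw [hj]
    have hj0 : j ≠ 0 := by
      rintro rfl
      rw [pow_zero, Subgroup.relIndex_eq_one] at hj
      exact absurd hQV (not_lt_of_ge hj)
    exact dvd_pow_self q hj0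
  refine ⟨fun Q₁ h₁ Q₂ h₂ => ?_, hsub⟩
  obtain ⟨c, hc, hcQ⟩ := htrans Q₁ (hsub h₁) Q₂ (hsub h₂) h₁.1.2.2 h₂.1.2.2
  rw [kCore_inf_centralizer hG hA hAP] at hc
  exact ⟨c, hc, hcQ.symm⟩

end Core

/-- Induction along a subnormal chain. -/
theorem trans_chain (hG : IsMinSimpleOddOrder G) {P : Subgroup G} (hP : P ≠ ⊤) (π : Set ℕ) (q : ℕ)
    [Fact q.Prime] (H : Subgroup P) (hH : H.IsSubnormal) :
    ∀ A : Subgroup G, A = H.map P.subtype → TransitivityHypothesis A →
      primesNotDvd (Nat.card A) = π →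
      (∀ r : ℕ, r.Prime → r ∣ Nat.card P → r ∣ Nat.card A) → ¬ q ∣ Nat.card A →
      (∀ Q₁ ∈ maxInvSubgroups ⊤ A {q}, ∀ Q₂ ∈ maxInvSubgroups ⊤ A {q},
        KConj (piCoreOf π (centralizer (A : Set G))) Q₁ Q₂) →
      (∀ Q₁ ∈ maxInvSubgroups ⊤ P {q}, ∀ Q₂ ∈ maxInvSubgroups ⊤ P {q},
        KConj (piCoreOf π (centralizer (P : Set G))) Q₁ Q₂) ∧
        maxInvSubgroups ⊤ P {q} ⊆ maxInvSubgroups ⊤ A {q} := by
  induction hH with
  | top =>
    intro A hA _ _ _ _ htr
    have hAP : A = P := by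
      rw [hA, ← MonoidHom.range_eq_map, Subgroup.range_subtype]
    subst hAP
    exact ⟨htr, le_rfl⟩
  | step H K hle hSubn hN ih =>
    intro A hA hth hπ hprimes hq htr
    subst hπ
    set B : Subgroup G := K.map P.subtype with hB
    have hBP : B ≤ P := Subgroup.map_subtype_le _
    have hAB : A ≤ B := by
      rw [hA]
      exact Subgroup.map_mono hle
    have hBprimes : ∀ r : ℕ, r.Prime → r ∣ Nat.card B → r ∣ Nat.card A := fun r hr hd =>
      hprimes r hr (hd.trans (Subgroup.card_dvd_of_le hBP))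
    have hBne : B ≠ ⊤ := by
      intro h
      apply hP
      rw [eq_top_iff, ← h]
      exact hBP
    have hBA : B ≤ normalizer (A : Set G) := by
      rintro _ ⟨k, hk, rfl⟩
      apply mem_normalizer_of_conj_le
      intro x hx
      rw [hA] at hx ⊢
      obtain ⟨a, ha, rfl⟩ := hx
      refine ⟨k * a * k⁻¹, ?_, by simp⟩
      have := hN.conj_mem ⟨a, hle ha⟩ (by simpa [Subgroup.mem_subgroupOf] using ha) ⟨k, hk⟩
      simpa [Subgroup.mem_subgroupOf] using this
    obtain ⟨hb1, hb2⟩ := trans_normal_step hG hth hBne hAB hBA hBprimes q hq htr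
    have hBth : TransitivityHypothesis B :=
      transitivityHypothesis_of_le hth hBne hAB hBprimes
    have hπB : primesNotDvd (Nat.card B) = primesNotDvd (Nat.card A) :=
      primesNotDvd_eq_of_le hAB hBprimes
    have hqB : ¬ q ∣ Nat.card B := fun h => hq (hBprimes q Fact.out h)
    obtain ⟨h1, h2⟩ := ih B rfl hBth hπB
      (fun r hr hd => (hprimes r hr hd).trans (Subgroup.card_dvd_of_le hAB)) hqB hb1
    exact ⟨h1, h2.trans hb2⟩

theorem le_normalizer_piCoreOf_of_normalizer (π : Set ℕ) {X : Subgroup G} {g : G}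
    (hg : g ∈ normalizer (X : Set G)) : g ∈ normalizer (piCoreOf π X : Set G) := by
  apply mem_normalizer_of_conj_le
  intro y hy
  have hconj : ∀ x ∈ X, g⁻¹ * x * g ∈ X := by
    intro x hx
    have := (Subgroup.mem_normalizer_iff.1 (inv_mem hg) x).1 hx
    simpa using this
  have hle : (piCoreOf π X).map (MulAut.conj g).toMonoidHom ≤ piCoreOf π X := by
    apply le_piCoreOf
    · rintro _ ⟨w, hw, rfl⟩
      exact (Subgroup.mem_normalizer_iff.1 hg w).1 (piCoreOf_le _ _ hw)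
    · intro x hx
      apply mem_normalizer_of_conj_le
      rintro _ ⟨w, hw, rfl⟩
      have h1 : g⁻¹ * x * g ∈ X := hconj x hx
      have h2 := (Subgroup.mem_normalizer_iff.1 (le_normalizer_piCoreOf π X h1) w).1 hw
      refine ⟨_, h2, ?_⟩
      simp [MulAut.conj_apply, mul_assoc]
    · exact (piCoreOf_isPi _ _).conj g
  exact hle (conj_mem_conj_map _ g y hy)

theorem commutator_self_normalized (D : Subgroup G) : D ≤ normalizer ((⁅D, D⁆ : Subgroup G) : Set G) := by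
  intro e he
  rw [← conj_map_eq_iff_mem_normalizer, Subgroup.map_commutator,
    (conj_map_eq_iff_mem_normalizer D e).2 (le_normalizer he)]

/-- Powers modulo a subgroup normalized by the base. -/
theorem pow_mul_mem_of_normalized {D' : Subgroup G} {w d : G} (hw : w ∈ normalizer (D' : Set G))
    (hd : d ∈ D') (n : ℕ) : (w * d) ^ n * (w ^ n)⁻¹ ∈ D' := by
  induction n with
  | zero => simp
  | succ n ih =>
    have h1 : w ^ n ∈ normalizer (D' : Set G) := pow_mem hw n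
    have h2 : w * d * w⁻¹ ∈ D' := (Subgroup.mem_normalizer_iff.1 hw d).1 hd
    have h3 := (Subgroup.mem_normalizer_iff.1 h1 _).1 h2
    have : (w * d) ^ (n + 1) * (w ^ (n + 1))⁻¹ =
        ((w * d) ^ n * (w ^ n)⁻¹) * (w ^ n * (w * d * w⁻¹) * (w ^ n)⁻¹) := by
      rw [pow_succ, pow_succ]
      group
    rw [this]
    exact mul_mem ih h3

/-- Part (d) from transitivity on the maximal `P`-invariant `q`-subgroups. -/
theorem frattini_part (π : Set ℕ) {q : ℕ} {Q : Subgroup G} (hQ : Q ∈ maxInvSubgroups ⊤ P {q})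
    (htr : ∀ Q₁ ∈ maxInvSubgroups ⊤ P {q}, ∀ Q₂ ∈ maxInvSubgroups ⊤ P {q},
      KConj (piCoreOf π (centralizer (P : Set G))) Q₁ Q₂) :
    normalizer (P : Set G) = piCoreOf π (centralizer (P : Set G)) ⊔
      (normalizer (P : Set G) ⊓ normalizer (Q : Set G)) := by
  set W := piCoreOf π (centralizer (P : Set G)) with hW
  have hWC : W ≤ centralizer (P : Set G) := piCoreOf_le _ _
  have hWN : W ≤ normalizer (P : Set G) := hWC.trans (centralizer_le_normalizer' P)
  apply le_antisymm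
  · intro g hg
    have hQg : Q.map (MulAut.conj g).toMonoidHom ∈ maxInvSubgroups ⊤ P {q} :=
      maxInv_conj_normalizer hg hQ
    obtain ⟨k, hk, hkQ⟩ := htr Q hQ _ hQg
    have h1 : k⁻¹ * g ∈ normalizer (Q : Set G) := by
      rw [← conj_map_eq_iff_mem_normalizer]
      have h2 := congrArg (fun X : Subgroup G => X.map (MulAut.conj k⁻¹).toMonoidHom) hkQ
      simp only [conj_map_conj_map, inv_mul_cancel, conj_map_one] at h2
      exact h2
    have h3 : k⁻¹ * g ∈ normalizer (P : Set G) := mul_mem (inv_mem (hWN hk)) hg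
    have h4 : g = k * (k⁻¹ * g) := by group
    rw [h4]
    exact mul_mem_sup hk (Subgroup.mem_inf.2 ⟨h3, h1⟩)
  · exact sup_le hWN inf_le_left

theorem commutator_part (π : Set ℕ) {q : ℕ} {Q : Subgroup G} (hQ : Q ∈ maxInvSubgroups ⊤ P {q})
    (hcopW : (Nat.card P).Coprime (Nat.card (piCoreOf π (centralizer (P : Set G)))))
    (hN : normalizer (P : Set G) = piCoreOf π (centralizer (P : Set G)) ⊔
      (normalizer (P : Set G) ⊓ normalizer (Q : Set G))) :
    P ⊓ ⁅normalizer (P : Set G), normalizer (P : Set G)⁆ ≤ ⁅normalizer (Q : Set G), normalizer (Q : Set G)⁆ := by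
  set Np := normalizer (P : Set G) with hNp
  set W := piCoreOf π (centralizer (P : Set G)) with hW
  set D := Np ⊓ normalizer (Q : Set G) with hD
  have hWC : W ≤ centralizer (P : Set G) := piCoreOf_le _ _
  have hNpW : Np ≤ normalizer (W : Set G) := fun g hg =>
    le_normalizer_piCoreOf_of_normalizer π (X := centralizer (P : Set G)) (by
      apply mem_normalizer_of_conj_le
      intro c hc
      exact conj_mem_centralizer_of_normalizer hg hc)
  have hDNp : D ≤ Np := inf_le_left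
  have hPD : P ≤ D := le_inf le_normalizer hQ.1.2.2
  set D' : Subgroup G := ⁅D, D⁆ with hD'
  have hD'D : D' ≤ D := Subgroup.commutator_le_self D
  have hDD' : D ≤ normalizer (D' : Set G) := commutator_self_normalized D
  have hcomm : ⁅Np, Np⁆ ≤ W ⊔ D' := by
    rw [Subgroup.commutator_le]
    intro x hx y hy
    have hx' : x ∈ W ⊔ D := hN ▸ hx
    have hy' : y ∈ W ⊔ D := hN ▸ hy
    obtain ⟨w₁, hw₁, d₁, hd₁, rfl⟩ := mem_sup_of_le_normalizer (hDNp.trans hNpW) hx'
    obtain ⟨w₂, hw₂, d₂, hd₂, rfl⟩ := mem_sup_of_le_normalizer (hDNp.trans hNpW) hy'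
    have hconjW : ∀ n ∈ Np, ∀ w ∈ W, n * w * n⁻¹ ∈ W := fun n hn w hw =>
      (Subgroup.mem_normalizer_iff.1 (hNpW hn) w).1 hw
    have hd₁N := hDNp hd₁
    have hd₂N := hDNp hd₂
    have e : ⁅w₁ * d₁, w₂ * d₂⁆ = (w₁ * (d₁ * w₂ * d₁⁻¹) *
        ((d₁ * d₂ * d₁⁻¹) * w₁⁻¹ * (d₁ * d₂ * d₁⁻¹)⁻¹) *
        ((d₁ * d₂ * d₁⁻¹ * d₂⁻¹) * w₂⁻¹ * (d₁ * d₂ * d₁⁻¹ * d₂⁻¹)⁻¹)) * ⁅d₁, d₂⁆ := by
      simp only [commutatorElement_def]
      group
    rw [e]
    refine mul_mem_sup ?_ (Subgroup.commutator_mem_commutator hd₁ hd₂)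
    refine mul_mem (mul_mem (mul_mem hw₁ (hconjW _ hd₁N _ hw₂)) (hconjW _ ?_ _ (inv_mem hw₁))) (hconjW _ ?_ _ (inv_mem hw₂))
    · exact mul_mem (mul_mem hd₁N hd₂N) (inv_mem hd₁N)
    · exact mul_mem (mul_mem (mul_mem hd₁N hd₂N) (inv_mem hd₁N)) (inv_mem hd₂N)
  have hmain : P ⊓ ⁅Np, Np⁆ ≤ D' := by
    intro g hg
    obtain ⟨hgP, hgc⟩ := Subgroup.mem_inf.1 hg
    have hg' : g ∈ W ⊔ D' := hcomm hgc
    obtain ⟨w, hw, d, hd, rfl⟩ := mem_sup_of_le_normalizer ((hD'D.trans hDNp).trans hNpW) hg'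
    have hwD : w ∈ D := by
      have h1 : w = (w * d) * d⁻¹ := by group
      rw [h1]
      exact mul_mem (hPD hgP) (inv_mem (hD'D hd))
    have hpow := pow_mul_mem_of_normalized (hDD' hwD) hd (Nat.card W)
    have hw1 : w ^ Nat.card W = 1 := by
      have := pow_card_eq_one' (G := W) (x := ⟨w, hw⟩)
      exact congrArg Subtype.val this
    rw [hw1, inv_one, mul_one] at hpow
    have hgm : (w * d) ^ Nat.card P = 1 := by
      have := pow_card_eq_one' (G := P) (x := ⟨w * d, hgP⟩)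
      exact congrArg Subtype.val this
    obtain ⟨a, b, hab⟩ := Nat.isCoprime_iff_coprime.2 hcopW
    have h1 : w * d = ((w * d) ^ Nat.card P) ^ a * ((w * d) ^ Nat.card W) ^ b := by
      rw [← zpow_natCast, ← zpow_natCast, ← zpow_mul, ← zpow_mul, ← zpow_add, mul_comm (Nat.card P : ℤ),
        mul_comm (Nat.card W : ℤ), hab, zpow_one]
    rw [h1, hgm, one_zpow, one_mul]
    exact zpow_mem hpow b
  exact hmain.trans (Subgroup.commutator_mono inf_le_right inf_le_right)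

/-- **S1395**. -/
theorem s1395_core (hG : IsMinSimpleOddOrder G) (hA : TransitivityHypothesis A) (q : ℕ) (hq : q.Prime)
    (hqA : ¬ q ∣ Nat.card A) (hP : P ≠ ⊤)
    (hPπ : ∀ r : ℕ, r.Prime → r ∣ Nat.card P → r ∣ Nat.card A) (hAP : A ≤ P)
    (hsn : (A.subgroupOf P).IsSubnormal)
    (htr : ∀ Q₁ ∈ maxInvSubgroups ⊤ A {q}, ∀ Q₂ ∈ maxInvSubgroups ⊤ A {q},
      ∃ k ∈ piCoreOf (primesNotDvd (Nat.card A)) (centralizer (A : Set G)),
        Q₂ = Q₁.map (MulAut.conj k).toMonoidHom) :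
    piCoreOf (primesNotDvd (Nat.card A)) (centralizer (A : Set G)) ⊓ centralizer (P : Set G) =
        piCoreOf (primesNotDvd (Nat.card A)) (centralizer (P : Set G)) ∧
      (∀ Q₁ ∈ maxInvSubgroups ⊤ P {q}, ∀ Q₂ ∈ maxInvSubgroups ⊤ P {q},
        ∃ k ∈ piCoreOf (primesNotDvd (Nat.card A)) (centralizer (P : Set G)),
          Q₂ = Q₁.map (MulAut.conj k).toMonoidHom) ∧
      maxInvSubgroups ⊤ P {q} ⊆ maxInvSubgroups ⊤ A {q} ∧
      ∀ Q ∈ maxInvSubgroups ⊤ P {q},
        P ⊓ ⁅normalizer (P : Set G), normalizer (P : Set G)⁆ ≤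
            ⁅normalizer (Q : Set G), normalizer (Q : Set G)⁆ ∧
        normalizer (P : Set G) = piCoreOf (primesNotDvd (Nat.card A)) (centralizer (P : Set G)) ⊔
          (normalizer (P : Set G) ⊓ normalizer (Q : Set G)) := by
  haveI : Fact q.Prime := ⟨hq⟩
  have hmap : A = (A.subgroupOf P).map P.subtype := (Subgroup.map_subgroupOf_eq_of_le hAP).symm
  obtain ⟨h1, h2⟩ := trans_chain hG hP (primesNotDvd (Nat.card A)) q (A.subgroupOf P) hsn A hmap hA rfl hPπ hqA htr
  refine ⟨kCore_inf_centralizer hG hA hAP, h1, h2, fun Q hQ => ?_⟩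
  have hN := frattini_part (primesNotDvd (Nat.card A)) hQ h1
  refine ⟨?_, hN⟩
  refine commutator_part (primesNotDvd (Nat.card A)) hQ ?_ hN
  refine Nat.coprime_of_dvd fun r hr hd1 hd2 => ?_
  exact (piCoreOf_isPi _ _ r hr hd2).2 (hPπ r hr hd1)

end Cfsg.Agent.Lib.OddLocal
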